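import Cfsg.Agent.H219.RedThree

/-!
The relative fusion theorem, from the centric case.
-/

set_option autoImplicit false

namespace Cfsg.Agent.H219.Ind

open Subgroup Cfsg
open Cfsg.Agent.PLocal
open Cfsg.Agent.Lib.GoldschmidtFusion
open Cfsg.Agent.Walter.GlaubermanFusion
open Cfsg.Agent.H219.Conf Cfsg.Agent.H219.Red

universe u

/-- The centric case. -/
def CentCase (p : ℕ) (lam : ZMod p) : Prop :=
  ∀ (G : Type u) [Group G] [Finite G] (S Z : Subgroup G), Hyp p S Z →
    centralizer (pCore p G : Set G) ≤ pCore p G → normalizer (Z : Set G) ≠ ⊤ →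
    (∀ M : Subgroup G, M ≠ ⊤ → S ≤ M → M ≤ normalizer (Z : Set G)) →
      FConf p lam S (normalizer (Z : Set G)) Z

theorem rt_of_cent {p : ℕ} [hpf : Fact p.Prime] {lam : ZMod p} (hcc : CentCase.{u} p lam) :
    ∀ (n : ℕ) (G : Type u) [Group G] [Finite G], Nat.card G ≤ n → RT p lam G := by
  intro n
  induction n with
  | zero =>
    intro G _ _ hn
    exact absurd hn (by have : 0 < Nat.card G := Nat.card_pos; omega)
  | succ n ih =>
    intro G _ _ hn
    have IH : ∀ K : Subgroup G, K ≠ ⊤ → RT p lam K := by
      intro K hK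
      refine ih K ?_
      have h2 := ConjFunctor.card_lt_card_of_lt (lt_top_iff_ne_top.2 hK)
      rw [Subgroup.card_top] at h2
      omega
    have IHq : ∀ K : Subgroup G, ∀ _ : K.Normal, K ≠ ⊥ → RT p lam (G ⧸ K) := by
      intro K hKn hK
      refine ih _ ?_
      have h1 : Nat.card K * Nat.card (G ⧸ K) = Nat.card G := by
        rw [mul_comm]
        exact (Subgroup.card_eq_card_quotient_mul_card_subgroup _).symm
      have h2 : 1 < Nat.card K := by
        rw [Subgroup.one_lt_card_iff_ne_bot]; exact hK
      have h3 : 0 < Nat.card (G ⧸ K) := Nat.card_pos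
      nlinarith
    intro S Z h
    by_cases hO' : pPrimeCore p G = ⊥
    swap
    · have hn : (pPrimeCore p G).Normal := Lib.Cores.pPrimeCore_normal p
      refine step_zero (φ := QuotientGroup.mk' (pPrimeCore p G)) (QuotientGroup.mk'_surjective _) ?_
        (IHq _ hn hO') h
      rw [QuotientGroup.ker_mk']
      exact Lib.Cores.pPrimeCore_coprime p
    by_cases hO : pCore p G = ⊥
    · exact RedThree.step_three IH h hO
    have hYn : (pCore p G).Normal := Lib.Cores.pCore_normal p
    by_cases hCP : centralizer (pCore p G : Set G) ⊔ S = ⊤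
    · exact RedTwo.step_two IH (IHq _ hYn hO) h hCP
    rcases RedCent.step_cent IH hO' h hCP with h1 | hcent
    · exact h1
    by_cases hF : FConf p lam S (normalizer (Z : Set G)) Z
    · exact Or.inr hF
    by_cases hH : normalizer (Z : Set G) = ⊤
    · exact Or.inl (ctl_of_top hH)
    right
    refine hcc G S Z h hcent hH ?_
    intro M hM hSM m hm
    have hYS : pCore p G ≤ S := Lib.Cores.pCore_le_sylow (h.pS.toSylow h.syl)
    obtain ⟨n, hn, c, hc, rfl⟩ := good_of_proper IH h hF hM hSM hYS hm (by
      rw [mem_normalizer_iff_map_conj.1 (by rw [normalizer_eq_top_iff.2 hYn]; trivial)]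
      exact hYS)
    exact mul_mem hn (h.le_norm (hYS (hcent hc)))

end Cfsg.Agent.H219.Ind
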