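import Cfsg.Agent.H219.CaseTwo

/-!
The second half of the centric case.
-/

set_option autoImplicit false

namespace Cfsg.Agent.H219.LTwo

open Subgroup
open Cfsg.Agent.Lib.GoldschmidtFusion
open Cfsg.Agent.H219.Conf Cfsg.Agent.H219.Finish Cfsg.Agent.H219.CaseOne Cfsg.Agent.H219.CaseTwo

variable {G : Type*} [Group G] [Finite G] {p : ℕ} [hpf : Fact p.Prime] {lam : ZMod p}

theorem l_two (hp : p ≠ 2) (hlam : lam ≠ 0) {S Z B : Subgroup G} (hS : IsPGroup p S)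
    (hi : ¬ p ∣ S.index) (hSH : S ≤ normalizer (Z : Set G)) (htop : normalizer (Z : Set G) ≠ ⊤)
    (huniq : ∀ M : Subgroup G, M ≠ ⊤ → S ≤ M → M ≤ normalizer (Z : Set G))
    (hBn : B.Normal) (hBab : ∀ x ∈ B, ∀ y ∈ B, x * y = y * x) (hBexp : ∀ x ∈ B, x ^ p = 1)
    (hV : Z ⊓ B ≠ ⊥) (hcore : ∀ N : Subgroup G, N.Normal → N ≤ Z ⊓ B → N = ⊥)
    {a : G} (haS : a ∈ S) (haq : Quad p B a) (haY : a ∉ Cfsg.pCore p G) :
    FConf p lam S (normalizer (Z : Set G)) Z := by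
  classical
  have hHB : normalizer (Z : Set G) ≤ normalizer ((Z ⊓ B : Subgroup G) : Set G) := by
    refine le_trans (le_inf le_rfl ?_) inf_le_normalizer_inf
    rw [normalizer_eq_top_iff.2 hBn]
    exact le_top
  obtain ⟨V, ⟨hV1, hV2, hV3⟩, hVmin⟩ := (Set.toFinite {V : Subgroup G | V ≤ Z ⊓ B ∧ V ≠ ⊥ ∧
    normalizer (Z : Set G) ≤ normalizer (V : Set G)}).exists_minimal ⟨Z ⊓ B, le_rfl, hV, hHB⟩
  have st : Setup p S Z B V := by
    refine ⟨hS, hi, hSH, htop, huniq, hBn, hBab, hBexp, hV1.trans inf_le_left,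
      hV1.trans inf_le_right, hV2, hV3, ?_⟩
    intro h
    exact hV2 (hcore V (normalizer_eq_top_iff.1 h) hV1)
  by_cases hcase : ∃ d ∈ normalizer (Z : Set G), Quad p B d ∧ d ∉ centralizer (V : Set G)
  · obtain ⟨d, hd, hdq, hdV⟩ := hcase
    refine case_one hp hlam st ?_ hd hdq hdV
    intro U hU hU1 hHU
    exact le_antisymm hU (hVmin ⟨hU.trans hV1, hU1, hHU⟩ hU)
  · push Not at hcase
    exact case_two hp hlam st hcase haS haq haY

end Cfsg.Agent.H219.LTwo
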