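import Cfsg.Agent.H219.LOne
import Cfsg.Agent.H219.LTwo
import Cfsg.Agent.H219.Ind

/-!
The centric case, and the relative fusion theorem.
-/

set_option autoImplicit false

namespace Cfsg.Agent.H219.Cent

open Subgroup Cfsg
open scoped commutatorElement
open Cfsg.Agent.PLocal
open Cfsg.Agent.Lib.GoldschmidtFusion
open Cfsg.Agent.H219.Conf Cfsg.Agent.H219.Red Cfsg.Agent.H219.Ind Cfsg.Agent.H219.Finish

universe u

/-- The elements of order dividing `p` of an abelian subgroup. -/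
def om {G : Type*} [Group G] (p : ℕ) (B : Subgroup G) (hB : ∀ x ∈ B, ∀ y ∈ B, x * y = y * x) :
    Subgroup G where
  carrier := {x | x ∈ B ∧ x ^ p = 1}
  mul_mem' := by
    rintro x y ⟨hx1, hx2⟩ ⟨hy1, hy2⟩
    refine ⟨B.mul_mem hx1 hy1, ?_⟩
    rw [(show Commute x y from hB x hx1 y hy1).mul_pow, hx2, hy2, one_mul]
  one_mem' := ⟨B.one_mem, one_pow p⟩
  inv_mem' := by
    rintro x ⟨hx1, hx2⟩
    exact ⟨B.inv_mem hx1, by rw [inv_pow, hx2, inv_one]⟩

theorem cent_case {p : ℕ} [hpf : Fact p.Prime] (hp : p ≠ 2) {lam : ZMod p} (hlam : lam ≠ 0) :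
    CentCase.{u} p lam := by
  intro G _ _ S Z h hcent htop huniq
  obtain ⟨B, hBn, hBY, hcon, hBB, a, haS, haY, haq⟩ := LOne.l_one hp h hcent htop
  set Y₀ := (Z ⊓ B).normalCore with hY₀
  have hY₀n : Y₀.Normal := by rw [hY₀]; infer_instance
  have hY₀le : Y₀ ≤ Z ⊓ B := normalCore_le _
  have hY₀Z : Y₀ ≤ Z := hY₀le.trans inf_le_left
  have hY₀B : Y₀ ≤ B := hY₀le.trans inf_le_right
  have hY₀S : Y₀ ≤ S := hY₀Z.trans h.le
  set φ := QuotientGroup.mk' Y₀ with hφ
  have hφs : Function.Surjective φ := QuotientGroup.mk'_surjective Y₀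
  have hker : φ.ker = Y₀ := QuotientGroup.ker_mk' Y₀
  have hcZ : (Z.map φ).comap φ = Z := by rw [comap_map_eq, hker, sup_eq_left.2 hY₀Z]
  have hcB : (B.map φ).comap φ = B := by rw [comap_map_eq, hker, sup_eq_left.2 hY₀B]
  have hcS : (S.map φ).comap φ = S := by rw [comap_map_eq, hker, sup_eq_left.2 hY₀S]
  have hcN : (normalizer ((Z.map φ : Subgroup (G ⧸ Y₀)) : Set (G ⧸ Y₀))).comap φ =
      normalizer (Z : Set G) := by
    rw [comap_normalizer_eq_of_surjective _ hφs, hcZ]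
  have hBb : ∀ x ∈ B.map φ, ∀ y ∈ B.map φ, x * y = y * x := by
    rintro _ ⟨x, hx, rfl⟩ _ ⟨y, hy, rfl⟩
    have h1 : ⁅x, y⁆ ∈ Y₀ := by
      have h2 : (⁅B, B⁆ : Subgroup G) ≤ Y₀ :=
        (normal_le_normalCore (hN := Subgroup.commutator_normal B B)).2 hBB
      exact h2 (commutator_mem_commutator hx hy)
    rw [← commutatorElement_eq_one_iff_mul_comm, ← map_commutatorElement, ← MonoidHom.mem_ker, hker]
    exact h1
  have hBp : IsPGroup p B := (Lib.Cores.pCore_isPGroup p).to_le hBY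
  have hY₀p : IsPGroup p Y₀ := hBp.to_le hY₀B
  set Bo := om p (B.map φ) hBb with hBo
  have hBon : Bo.Normal := by
    refine ⟨fun x hx g => ⟨(hBn.map φ hφs).conj_mem x hx.1 g, ?_⟩⟩
    rw [conj_pow, hx.2]; group
  have key : FConf p lam (S.map φ) (normalizer ((Z.map φ : Subgroup (G ⧸ Y₀)) : Set (G ⧸ Y₀)))
      (Z.map φ) := by
    refine LTwo.l_two (B := Bo) (a := φ a) hp hlam (h.pS.map φ) ?_ ?_ ?_ ?_ hBon ?_ ?_ ?_ ?_
      ⟨a, haS, rfl⟩ ?_ ?_
    · intro hd
      exact h.syl (hd.trans (S.index_map_dvd hφs))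
    · rintro _ ⟨s, hs, rfl⟩
      exact Subgroup.le_normalizer_map φ ⟨s, h.le_norm hs, rfl⟩
    · intro ht
      rw [ht, comap_top] at hcN
      exact htop hcN.symm
    · intro M hM hSM
      have h1 : M.comap φ ≠ ⊤ := by
        intro ht
        apply hM
        rw [← Subgroup.map_comap_eq_self_of_surjective hφs M, ht,
          Subgroup.map_top_of_surjective φ hφs]
      have h2 : S ≤ M.comap φ := by
        rw [← hcS]; exact comap_mono hSM
      have h3 := huniq _ h1 h2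
      rw [← hcN] at h3
      exact (Subgroup.comap_le_comap_of_surjective hφs).1 h3
    · intro x hx y hy
      exact hBb x hx.1 y hy.1
    · intro x hx
      exact hx.2
    · -- `Z̄ ∩ Ω₁(B̄) ≠ 1`
      obtain ⟨z, hz, hzY⟩ : ∃ z ∈ Z ⊓ B, z ∉ Y₀ := by
        by_contra hno
        push Not at hno
        apply hcon
        have : Z ⊓ B = Y₀ := le_antisymm hno hY₀le
        rw [this]
        exact hY₀n
      have hne : φ z ≠ 1 := by
        intro h1
        rw [← MonoidHom.mem_ker, hker] at h1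
        exact hzY h1
      have hzp : ∃ n, (φ z) ^ p ^ n = 1 := by
        obtain ⟨n, hn⟩ := hBp ⟨z, hz.2⟩
        have h1 : z ^ p ^ n = 1 := congrArg Subtype.val hn
        exact ⟨n, by rw [← map_pow, h1, map_one]⟩
      obtain ⟨n, hn⟩ := hzp
      have h2 : ∃ m, (φ z) ^ p ^ m ≠ 1 ∧ (φ z) ^ p ^ (m + 1) = 1 := by
        classical
        have hex : ∃ n, (φ z) ^ p ^ n = 1 := ⟨n, hn⟩
        have h3 := Nat.find_spec hex
        have h4 : Nat.find hex ≠ 0 := by
          intro h0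
          rw [h0, pow_zero, pow_one] at h3
          exact hne h3
        obtain ⟨m, hm⟩ := Nat.exists_eq_succ_of_ne_zero h4
        refine ⟨m, Nat.find_min hex (by omega), ?_⟩
        rw [hm] at h3
        exact h3
      obtain ⟨m, hm1, hm2⟩ := h2
      intro hbot
      apply hm1
      have h5 : (φ z) ^ p ^ m ∈ Z.map φ ⊓ Bo := by
        have h6 : φ z ∈ Z.map φ := ⟨z, hz.1, rfl⟩
        have h7 : φ z ∈ B.map φ := ⟨z, hz.2, rfl⟩
        refine ⟨pow_mem h6 _, pow_mem h7 _, ?_⟩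
        rw [← pow_mul, ← pow_succ]
        exact hm2
      rw [hbot, mem_bot] at h5
      exact h5
    · intro N hN hNle
      have h1 : N.comap φ ≤ Z ⊓ B := by
        intro x hx
        have h2 := hNle hx
        refine ⟨?_, ?_⟩
        · rw [SetLike.mem_coe, ← hcZ]; exact h2.1
        · rw [SetLike.mem_coe, ← hcB]; exact h2.2.1
      have hNn : (N.comap φ).Normal := hN.comap φ
      have h2 : N.comap φ ≤ Y₀ := (normal_le_normalCore (hN := hNn)).2 h1
      rw [eq_bot_iff]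
      intro x hx
      obtain ⟨x, rfl⟩ := hφs x
      have h3 : x ∈ Y₀ := h2 hx
      rw [mem_bot, ← MonoidHom.mem_ker, hker]
      exact h3
    · refine ⟨?_, ?_⟩
      · obtain ⟨n, hn⟩ := h.pS ⟨a, haS⟩
        have h1 : a ^ p ^ n = 1 := congrArg Subtype.val hn
        exact ⟨n, by rw [← map_pow, h1, map_one]⟩
      · rintro _ ⟨⟨x, hx, rfl⟩, -⟩
        have := congrArg φ (haq x hx)
        simpa only [map_mul, map_inv] using this
    · intro haC
      apply haY
      have hn : ((pCore p (G ⧸ Y₀)).comap φ).Normal :=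
        (Lib.Cores.pCore_normal (G := G ⧸ Y₀) p).comap φ
      have hp' : IsPGroup p ((pCore p (G ⧸ Y₀)).comap φ) := by
        refine (Lib.Cores.pCore_isPGroup (G := G ⧸ Y₀) p).comap_of_ker_isPGroup φ ?_
        rw [hker]; exact hY₀p
      exact Lib.Cores.le_pCore hn hp' haC
  have h1 := key.comap hφs (le_rfl : Z.map φ ≤ Z.map φ)
  rw [hcS, hcN] at h1
  exact h1

theorem rt {p : ℕ} [hpf : Fact p.Prime] (hp : p ≠ 2) {lam : ZMod p} (hlam : lam ≠ 0)
    (G : Type u) [Group G] [Finite G] : RT p lam G :=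
  rt_of_cent (cent_case hp hlam) (Nat.card G) G le_rfl

end Cfsg.Agent.H219.Cent
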