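import Cfsg.Agent.H219.RelIdx
import Cfsg.Agent.PLocal.QuadraticNatural
import Cfsg.Agent.PLocal.QdSection
import Cfsg.Prelude.Def_LocalEven

/-!
A configuration gives a section isomorphic to `F(p)`.
-/

set_option autoImplicit false

namespace Cfsg.Agent.H219.FInv

open Subgroup
open Cfsg.Agent.Lib.GoldschmidtFusion
open Cfsg.Agent.PLocal.QdSection Cfsg.Agent.PLocal.QuadraticNatural
open Cfsg.Agent.H219.Conf Cfsg.Agent.H219.CycLift Cfsg.Agent.H219.RelIdx

section Mat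

variable {p : ℕ} [hpf : Fact p.Prime]

/-- The diagonal matrix `[l 0; 0 l⁻¹]`. -/
def dgp (l : ZMod p) (hl : l ≠ 0) : S2 p :=
  ⟨!![l, 0; 0, l⁻¹], by rw [Matrix.det_fin_two_of, mul_inv_cancel₀ hl, mul_zero, sub_zero]⟩

theorem coe_dgp (l : ZMod p) (hl : l ≠ 0) : (dgp l hl).1 = !![l, 0; 0, l⁻¹] := rfl

theorem act_dg (lam : ZMod p) (h : lam ≠ 0) (s t : ZMod p) :
    act (dgp lam h) (Multiplicative.ofAdd ![s, t]) = Multiplicative.ofAdd ![lam * s, lam⁻¹ * t] := by
  have h1 : (!![lam, 0; 0, lam⁻¹] : Matrix (Fin 2) (Fin 2) (ZMod p)).mulVec ![s, t] = ![lam * s, lam⁻¹ * t] := by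
    funext i
    fin_cases i <;> simp [Matrix.mulVec, dotProduct, Fin.sum_univ_two]
  exact congrArg Multiplicative.ofAdd h1

theorem act_upp (c s t : ZMod p) :
    act (upp c) (Multiplicative.ofAdd ![s, t]) = Multiplicative.ofAdd ![s + c * t, t] := by
  have h1 : (!![1, c; 0, 1] : Matrix (Fin 2) (Fin 2) (ZMod p)).mulVec ![s, t] = ![s + c * t, t] := by
    funext i
    fin_cases i <;> simp [Matrix.mulVec, dotProduct, Fin.sum_univ_two]
  exact congrArg Multiplicative.ofAdd h1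

theorem dgp_mul_upp (l s : ZMod p) (hl : l ≠ 0) :
    dgp l hl * upp s * (dgp l hl)⁻¹ = upp (l ^ 2 * s) := by
  rw [mul_inv_eq_iff_eq_mul]
  apply Subtype.ext
  rw [Matrix.SpecialLinearGroup.coe_mul, Matrix.SpecialLinearGroup.coe_mul, coe_upp, coe_upp]
  change !![l, 0; 0, l⁻¹] * _ = _ * !![l, 0; 0, l⁻¹]
  rw [Matrix.mul_fin_two, Matrix.mul_fin_two]
  have : l * l⁻¹ = 1 := mul_inv_cancel₀ hl
  congr 1
  · simp only [mul_one, mul_zero, zero_mul, add_zero, one_mul, zero_add]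
    have e : l ^ 2 * s * l⁻¹ = l * s := by
      calc l ^ 2 * s * l⁻¹ = l * s * (l * l⁻¹) := by ring
        _ = l * s := by rw [this, mul_one]
    rw [e]

omit hpf in
theorem diag_conj_transl (A : S2 p) (v : V p) :
    diag A * transl v * (diag A)⁻¹ = transl (act A v) := by
  rw [diag_mul_transl, mul_inv_cancel_right]

theorem transl_mem_fOver (v : V p) : transl v ∈ Cfsg.fOver (ZMod p) :=
  Subgroup.subset_closure ⟨by simp [transl_apply], by simp [transl_apply], by simp [transl_apply],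
    by simp [transl_apply]⟩

theorem diag_mem_fOver (A : S2 p) (hA : A.1 1 0 = 0) : diag A ∈ Cfsg.fOver (ZMod p) :=
  Subgroup.subset_closure ⟨by simpa [diag_apply] using hA, by simp [diag_apply],
    by simp [diag_apply], by simp [diag_apply]⟩

/-- Upper triangular matrices of `SL₂`. -/
theorem eq_upp_mul_dg (A : S2 p) (hA : A.1 1 0 = 0) :
    ∃ (a : ZMod p) (ha : a ≠ 0) (s : ZMod p), A = upp s * dgp a ha := by
  have hdet : A.1 0 0 * A.1 1 1 - A.1 0 1 * A.1 1 0 = 1 := by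
    rw [← Matrix.det_fin_two]; exact A.2
  rw [hA, mul_zero, sub_zero] at hdet
  have ha : A.1 0 0 ≠ 0 := left_ne_zero_of_mul_eq_one hdet
  have hinv : (A.1 0 0)⁻¹ = A.1 1 1 := inv_eq_of_mul_eq_one_right hdet
  refine ⟨A.1 0 0, ha, A.1 0 0 * A.1 0 1, ?_⟩
  apply Subtype.ext
  rw [Matrix.SpecialLinearGroup.coe_mul, coe_upp]
  change A.1 = _ * !![A.1 0 0, 0; 0, (A.1 0 0)⁻¹]
  rw [hinv]
  ext i j
  fin_cases i <;> fin_cases j
  · simp
  · simp
    linear_combination (-A.1 0 1) * hdet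
  · simpa using hA
  · simp

theorem dg_pow (lam : ZMod p) (h : lam ≠ 0) (j : ℕ) :
    dgp lam h ^ j = dgp (lam ^ j) (pow_ne_zero j h) := by
  induction j with
  | zero =>
    apply Subtype.ext
    change (1 : Matrix (Fin 2) (Fin 2) (ZMod p)) = !![lam ^ 0, 0; 0, (lam ^ 0)⁻¹]
    rw [pow_zero, inv_one]
    exact Matrix.one_fin_two
  | succ j ih =>
    rw [pow_succ, ih]
    apply Subtype.ext
    rw [Matrix.SpecialLinearGroup.coe_mul]
    change !![lam ^ j, 0; 0, (lam ^ j)⁻¹] * !![lam, 0; 0, lam⁻¹] =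
      !![lam ^ (j + 1), 0; 0, (lam ^ (j + 1))⁻¹]
    rw [Matrix.mul_fin_two]
    simp only [mul_zero, zero_mul, add_zero, zero_add]
    rw [pow_succ, mul_inv]

end Mat

theorem involves_f {G : Type*} [Group G] [Finite G] {p : ℕ} [hpf : Fact p.Prime] (hp : p ≠ 2)
    {lam : ZMod p} (hlam : orderOf lam = p - 1) {S M Z : Subgroup G}
    (hS : IsPGroup p S) (hSM : S ≤ M) (h : FConf p lam S M Z) :
    Lib.Involves.Involves ↥M ↥(Cfsg.fOver (ZMod p)) := by
  classical
  have hp2 : 2 < p := lt_of_le_of_ne hpf.out.two_le (Ne.symm hp)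
  have hlam0 : lam ≠ 0 := by
    intro h0
    rw [h0] at hlam
    have h1 : orderOf (0 : ZMod p) = 0 := by
      rw [orderOf_eq_zero_iff, isOfFinOrder_iff_pow_eq_one]
      rintro ⟨n, hn, h⟩
      rw [zero_pow hn.ne'] at h
      exact zero_ne_one h
    omega
  have hlam1 : lam ≠ 1 := by
    intro h1
    rw [h1, orderOf_one] at hlam
    omega
  have hlamgen : ∀ a : ZMod p, a ≠ 0 → ∃ j : ℕ, lam ^ j = a := by
    intro a ha
    have hu : orderOf (Units.mk0 lam hlam0) = Nat.card (ZMod p)ˣ := by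
      rw [← orderOf_units, Units.val_mk0, hlam, Nat.card_eq_fintype_card, ZMod.card_units]
    have h2 : Units.mk0 a ha ∈ Submonoid.powers (Units.mk0 lam hlam0) := by
      rw [mem_powers_iff_mem_zpowers,
        Subgroup.eq_top_of_card_eq (zpowers (Units.mk0 lam hlam0)) (by rw [Nat.card_zpowers, hu])]
      trivial
    obtain ⟨j, hj⟩ := h2
    refine ⟨j, ?_⟩
    have h3 := congrArg (fun u : (ZMod p)ˣ => (u : ZMod p)) hj
    simpa using h3
  obtain ⟨W, Q, e1, e2, x, hc, hcop, hQ, hx, -⟩ := exists_pprime h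
  have hQp : IsPGroup p Q := hS.to_le hQ
  obtain ⟨w₂, hw₂, hw21, hw22⟩ := hc.sur 0 1
  -- the homomorphism `χ`
  set χ : G → ZMod p := fun q => e1 (q * w₂ * q⁻¹) with hχ
  have hχc : ∀ q ∈ Q, ∀ w ∈ W, q * w * q⁻¹ ∈ W ∧ e1 (q * w * q⁻¹) = e1 w + χ q * e2 w ∧
      e2 (q * w * q⁻¹) = e2 w := by
    intro q hq w hw
    obtain ⟨c, hc'⟩ := hc.act q hq
    have h1 : χ q = c := by
      change e1 (q * w₂ * q⁻¹) = c
      rw [(hc' w₂ hw₂).2.1, hw21, hw22]; ring
    rw [h1]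
    exact hc' w hw
  have hχadd : ∀ q ∈ Q, ∀ q' ∈ Q, χ (q * q') = χ q + χ q' := by
    intro q hq q' hq'
    change e1 (q * q' * w₂ * (q * q')⁻¹) = _
    have e : q * q' * w₂ * (q * q')⁻¹ = q * (q' * w₂ * q'⁻¹) * q⁻¹ := by group
    obtain ⟨h1, h2, h3⟩ := hχc q' hq' w₂ hw₂
    rw [e, (hχc q hq _ h1).2.1, h2, h3, hw21, hw22]
    ring
  have hxinv : ∀ w ∈ W, x⁻¹ * w * x ∈ W ∧ e1 (x⁻¹ * w * x) = lam⁻¹ * e1 w ∧
      e2 (x⁻¹ * w * x) = lam * e2 w := by
    intro w hw
    have h1 : x⁻¹ * w * x ∈ W := by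
      have := (Subgroup.mem_normalizer_iff.1 (inv_mem hc.xW) w).1 hw
      rwa [inv_inv] at this
    obtain ⟨h2, h3⟩ := hc.tor _ h1
    have e : x * (x⁻¹ * w * x) * x⁻¹ = w := by group
    rw [e] at h2 h3
    refine ⟨h1, ?_, ?_⟩
    · rw [h2, ← mul_assoc, inv_mul_cancel₀ hlam0, one_mul]
    · rw [h3, ← mul_assoc, mul_inv_cancel₀ hlam0, one_mul]
  have hχx : ∀ q ∈ Q, χ (x * q * x⁻¹) = lam ^ 2 * χ q := by
    intro q hq
    change e1 (x * q * x⁻¹ * w₂ * (x * q * x⁻¹)⁻¹) = _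
    have e : x * q * x⁻¹ * w₂ * (x * q * x⁻¹)⁻¹ = x * (q * (x⁻¹ * w₂ * x) * q⁻¹) * x⁻¹ := by group
    obtain ⟨h1, h2, h3⟩ := hxinv w₂ hw₂
    obtain ⟨h4, h5, h6⟩ := hχc q hq _ h1
    rw [e, (hc.tor _ h4).1, h5, h2, h3, hw21, hw22]
    ring
  obtain ⟨u, hu, hu0, l, hl⟩ := cyc_lift hcop χ (lam ^ 2) (Nat.card Q) Q le_rfl hQp hc.xQ hχadd hχx (by
    obtain ⟨q, hq, c, hc0, hc'⟩ := hc.ntr
    refine ⟨q, hq, ?_⟩
    have h1 : χ q = c := by
      change e1 (q * w₂ * q⁻¹) = c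
      rw [(hc' w₂ hw₂).1, hw21, hw22]; ring
    rw [h1]; exact hc0)
  have hχone : χ 1 = 0 := by
    have h1 := hχadd 1 Q.one_mem 1 Q.one_mem
    rw [mul_one] at h1
    exact left_eq_add.1 h1
  have hχpow : ∀ k : ℕ, χ (u ^ k) = k * χ u := by
    intro k
    induction k with
    | zero => rw [pow_zero, hχone, Nat.cast_zero, zero_mul]
    | succ k ih => rw [pow_succ, hχadd _ (Q.pow_mem hu k) _ hu, ih]; push_cast; ring
  have hllam : (l : ZMod p) = lam ^ 2 := by
    have h1 := hχx u hu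
    rw [hl, hχpow] at h1
    exact mul_right_cancel₀ hu0 h1
  -- the homomorphism from `W`
  let ev : G → V p := fun w => Multiplicative.ofAdd ![e1 w, e2 w]
  have hevmul : ∀ w ∈ W, ∀ w' ∈ W, ev (w * w') = ev w * ev w' := by
    intro w hw w' hw'
    change Multiplicative.ofAdd _ = _
    rw [(hc.add w hw w' hw').1, (hc.add w hw w' hw').2]
    change _ = Multiplicative.ofAdd (![e1 w, e2 w] + ![e1 w', e2 w'])
    congr 1
    funext i
    fin_cases i <;> simp
  have hevx : ∀ w ∈ W, ev (x * w * x⁻¹) = act (dgp lam hlam0) (ev w) := by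
    intro w hw
    change Multiplicative.ofAdd _ = act _ (Multiplicative.ofAdd _)
    rw [act_dg, (hc.tor w hw).1, (hc.tor w hw).2]
  have hevu : ∀ w ∈ W, ev (u * w * u⁻¹) = act (upp (χ u)) (ev w) := by
    intro w hw
    change Multiplicative.ofAdd _ = act _ (Multiplicative.ofAdd _)
    rw [act_upp, (hχc u hu w hw).2.1, (hχc u hu w hw).2.2]
  let τ : W →* Matrix.SpecialLinearGroup (Fin 3) (ZMod p) :=
    MonoidHom.mk' (fun w => transl (ev w)) (fun w w' => by
      change transl (ev ((w : G) * w')) = _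
      rw [hevmul w w.2 w' w'.2, map_mul])
  -- the graph
  set xD : G × Matrix.SpecialLinearGroup (Fin 3) (ZMod p) := (x, diag (dgp lam hlam0)) with hxD
  set uU : G × Matrix.SpecialLinearGroup (Fin 3) (ZMod p) := (u, diag (upp (χ u))) with huU
  set Γ₁ : Subgroup (G × Matrix.SpecialLinearGroup (Fin 3) (ZMod p)) :=
    (MonoidHom.prod W.subtype τ).range with hΓ₁
  have hmem₁ : ∀ g, g ∈ Γ₁ ↔ ∃ w ∈ W, g = (w, transl (ev w)) := by
    intro g
    constructor
    · rintro ⟨w, rfl⟩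
      exact ⟨w, w.2, rfl⟩
    · rintro ⟨w, hw, rfl⟩
      exact ⟨⟨w, hw⟩, rfl⟩
  have hfinSL : Finite (Matrix.SpecialLinearGroup (Fin 3) (ZMod p)) := by
    have : Finite (Matrix (Fin 3) (Fin 3) (ZMod p)) :=
      inferInstanceAs (Finite (Fin 3 → Fin 3 → ZMod p))
    exact Finite.of_injective (fun M : Matrix.SpecialLinearGroup (Fin 3) (ZMod p) => M.1)
      Subtype.val_injective
  have hxN₁ : xD ∈ normalizer (Γ₁ : Set (G × Matrix.SpecialLinearGroup (Fin 3) (ZMod p))) := by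
    rw [mem_normalizer_iff_map_conj]
    apply map_conj_le_of_le_normalizer
    rintro _ ⟨g, hg, rfl⟩
    obtain ⟨w, hw, rfl⟩ := (hmem₁ g).1 hg
    change xD * (w, transl (ev w)) * xD⁻¹ ∈ Γ₁
    rw [hmem₁]
    refine ⟨x * w * x⁻¹, (Subgroup.mem_normalizer_iff.1 hc.xW w).1 hw, ?_⟩
    rw [hevx w hw, ← diag_conj_transl]
    rfl
  have huN₁ : uU ∈ normalizer (Γ₁ : Set (G × Matrix.SpecialLinearGroup (Fin 3) (ZMod p))) := by
    rw [mem_normalizer_iff_map_conj]
    apply map_conj_le_of_le_normalizer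
    rintro _ ⟨g, hg, rfl⟩
    obtain ⟨w, hw, rfl⟩ := (hmem₁ g).1 hg
    change uU * (w, transl (ev w)) * uU⁻¹ ∈ Γ₁
    rw [hmem₁]
    refine ⟨u * w * u⁻¹, (hχc u hu w hw).1, ?_⟩
    rw [hevu w hw, ← diag_conj_transl]
    rfl
  have hxu : xD * uU * xD⁻¹ = uU ^ l := by
    apply Prod.ext
    · exact hl
    · change diag (dgp lam hlam0) * diag (upp (χ u)) * (diag (dgp lam hlam0))⁻¹ =
        (diag (upp (χ u))) ^ l
      rw [← map_inv, ← map_mul, ← map_mul, ← map_pow, dgp_mul_upp, upp_pow, hllam]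
  have hxN₂ : xD ∈ normalizer ((zpowers uU : Subgroup _) :
      Set (G × Matrix.SpecialLinearGroup (Fin 3) (ZMod p))) := by
    rw [mem_normalizer_iff_map_conj]
    apply map_conj_le_of_le_normalizer
    rw [MonoidHom.map_zpowers, zpowers_le]
    change xD * uU * xD⁻¹ ∈ zpowers uU
    rw [hxu]
    exact pow_mem (mem_zpowers _) l
  have hxN₃ : zpowers xD ≤ normalizer ((zpowers uU ⊔ Γ₁ : Subgroup _) :
      Set (G × Matrix.SpecialLinearGroup (Fin 3) (ZMod p))) := by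
    rw [zpowers_le, mem_normalizer_iff_map_conj, Subgroup.map_sup,
      mem_normalizer_iff_map_conj.1 hxN₁, mem_normalizer_iff_map_conj.1 hxN₂]
  set Γ : Subgroup (G × Matrix.SpecialLinearGroup (Fin 3) (ZMod p)) :=
    zpowers xD ⊔ (zpowers uU ⊔ Γ₁) with hΓ
  have hΓ₁le : Γ₁ ≤ Γ := le_sup_right.trans le_sup_right
  have huΓ : uU ∈ Γ := le_sup_right (a := zpowers xD) (le_sup_left (b := Γ₁) (mem_zpowers uU))
  have hxΓ : xD ∈ Γ := le_sup_left (b := zpowers uU ⊔ Γ₁) (mem_zpowers xD)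
  have hnf : ∀ g ∈ Γ, ∃ (j i : ℕ), ∃ w ∈ W, g = xD ^ j * (uU ^ i * (w, transl (ev w))) := by
    intro g hg
    have h1 : g ∈ ((Γ : Subgroup _) : Set (G × Matrix.SpecialLinearGroup (Fin 3) (ZMod p))) := hg
    rw [hΓ, coe_mul_of_left_le_normalizer_right _ _ hxN₃] at h1
    obtain ⟨a, ha, b, hb, rfl⟩ := Set.mem_mul.1 h1
    rw [coe_mul_of_left_le_normalizer_right _ _ (by rwa [zpowers_le])] at hb
    obtain ⟨b', hb', d, hd, rfl⟩ := Set.mem_mul.1 hb
    obtain ⟨w, hw, rfl⟩ := (hmem₁ d).1 hd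
    have ha' : a ∈ zpowers xD := ha
    have hb'' : b' ∈ zpowers uU := hb'
    rw [← mem_powers_iff_mem_zpowers] at ha' hb''
    obtain ⟨j, rfl⟩ := ha'
    obtain ⟨i, rfl⟩ := hb''
    exact ⟨j, i, w, hw, rfl⟩
  have hΓM : Γ ≤ (M.prod ⊤ : Subgroup (G × Matrix.SpecialLinearGroup (Fin 3) (ZMod p))) := by
    refine sup_le ?_ (sup_le ?_ ?_)
    · rw [zpowers_le]
      exact ⟨hx, trivial⟩
    · rw [zpowers_le]
      exact ⟨hSM (hQ hu), trivial⟩
    · intro g hg
      obtain ⟨w, hw, rfl⟩ := (hmem₁ g).1 hg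
      exact ⟨hSM (hQ (hc.le hw)), trivial⟩
  have hΓF : Γ ≤ ((⊤ : Subgroup G).prod (Cfsg.fOver (ZMod p))) := by
    refine sup_le ?_ (sup_le ?_ ?_)
    · rw [zpowers_le]
      exact ⟨trivial, diag_mem_fOver _ rfl⟩
    · rw [zpowers_le]
      refine ⟨trivial, diag_mem_fOver _ ?_⟩
      rw [coe_upp]; rfl
    · intro g hg
      obtain ⟨w, hw, rfl⟩ := (hmem₁ g).1 hg
      exact ⟨trivial, transl_mem_fOver _⟩
  let f : Γ →* M := ((MonoidHom.fst G (Matrix.SpecialLinearGroup (Fin 3) (ZMod p))).comp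
    Γ.subtype).codRestrict M (fun g => (hΓM g.2).1)
  let g : Γ →* ↥(Cfsg.fOver (ZMod p)) :=
    ((MonoidHom.snd G (Matrix.SpecialLinearGroup (Fin 3) (ZMod p))).comp
    Γ.subtype).codRestrict (Cfsg.fOver (ZMod p)) (fun g => (hΓF g.2).2)
  -- the iterated action of `x`
  have hxit : ∀ j : ℕ, e2 (x ^ j * w₂ * (x ^ j)⁻¹) = (lam⁻¹) ^ j ∧ x ^ j * w₂ * (x ^ j)⁻¹ ∈ W := by
    intro j
    induction j with
    | zero =>
      rw [pow_zero, pow_zero]
      have e : (1 : G) * w₂ * (1 : G)⁻¹ = w₂ := by group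
      rw [e]
      exact ⟨hw22, hw₂⟩
    | succ j ih =>
      have e : x ^ (j + 1) * w₂ * (x ^ (j + 1))⁻¹ = x * (x ^ j * w₂ * (x ^ j)⁻¹) * x⁻¹ := by
        rw [pow_succ']; group
      rw [e]
      refine ⟨?_, (Subgroup.mem_normalizer_iff.1 hc.xW _).1 ih.2⟩
      rw [(hc.tor _ ih.2).2, ih.1, pow_succ']
  refine Lib.Involves.of_injective_of_surjective f ?_ g ?_
  · rw [injective_iff_map_eq_one]
    rintro ⟨γ, hγ⟩ hγ1
    obtain ⟨j, i, w, hw, rfl⟩ := hnf γ hγ
    have h1 : x ^ j * (u ^ i * w) = 1 := congrArg Subtype.val hγ1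
    have huiQ : u ^ i ∈ Q := Q.pow_mem hu i
    -- `x ^ j = 1`
    have hxj : x ^ j = 1 := by
      have h2 : x ^ j ∈ Q := by
        have h3 : x ^ j = (u ^ i * w)⁻¹ := eq_inv_of_mul_eq_one_left h1
        rw [h3]
        exact Q.inv_mem (Q.mul_mem huiQ (hc.le hw))
      obtain ⟨n, hn⟩ := hQp ⟨x ^ j, h2⟩
      have h3 : (x ^ j) ^ p ^ n = 1 := congrArg Subtype.val hn
      have h4 : orderOf (x ^ j) ∣ orderOf x := orderOf_pow_dvd j
      have h5 : orderOf (x ^ j) = 1 :=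
        Nat.eq_one_of_dvd_coprimes (Nat.Coprime.pow_right n hcop) h4 (orderOf_dvd_of_pow_eq_one h3)
      exact orderOf_eq_one_iff.1 h5
    have hlamj : lam ^ j = 1 := by
      have h2 := (hxit j).1
      rw [hxj] at h2
      have e : (1 : G) * w₂ * (1 : G)⁻¹ = w₂ := by group
      rw [e, hw22, inv_pow] at h2
      exact inv_eq_one.1 h2.symm
    have hDj : (diag (dgp lam hlam0)) ^ j = 1 := by
      rw [← map_pow, dg_pow]
      have : dgp (lam ^ j) (pow_ne_zero j hlam0) = 1 := by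
        apply Subtype.ext
        change !![lam ^ j, 0; 0, (lam ^ j)⁻¹] = (1 : Matrix (Fin 2) (Fin 2) (ZMod p))
        rw [hlamj, inv_one]
        exact Matrix.one_fin_two.symm
      rw [this, map_one]
    rw [hxj, one_mul] at h1
    have hwu : w = (u ^ i)⁻¹ := eq_inv_of_mul_eq_one_right h1
    have huiW : u ^ i ∈ W := by
      have h2 := W.inv_mem hw
      rw [hwu, inv_inv] at h2
      exact h2
    -- `χ (u ^ i) = 0`
    have hχi : χ (u ^ i) = 0 := by
      have h2 := (hc.add (u ^ i) huiW (w₂ * (u ^ i)⁻¹) (W.mul_mem hw₂ (W.inv_mem huiW))).1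
      have h3 := (hc.add w₂ hw₂ ((u ^ i)⁻¹) (W.inv_mem huiW)).1
      have h4 := (hc.add (u ^ i) huiW ((u ^ i)⁻¹) (W.inv_mem huiW)).1
      have h5 := (hc.add 1 W.one_mem 1 W.one_mem).1
      rw [mul_one] at h5
      rw [mul_inv_cancel] at h4
      change e1 (u ^ i * w₂ * (u ^ i)⁻¹) = 0
      rw [mul_assoc, h2, h3, hw21]
      linear_combination -h4 + (left_eq_add.1 h5)
    have hi0 : (i : ZMod p) * χ u = 0 := by rw [← hχpow]; exact hχi
    have hUi : (diag (upp (χ u))) ^ i = 1 := by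
      rw [← map_pow, upp_pow, hi0, upp_zero, map_one]
    -- `ev w = 1`
    have huw : u * w * u⁻¹ = w := by rw [hwu]; group
    have hxw : x * w * x⁻¹ = w ^ l := by
      rw [hwu, ← conj_inv, ← conj_pow, hl, ← pow_mul, inv_pow, ← pow_mul, mul_comm]
    have he2 : e2 w = 0 := by
      have h2 := (hχc u hu w hw).2.1
      rw [huw] at h2
      have h3 : χ u * e2 w = 0 := by linear_combination -h2
      rcases mul_eq_zero.1 h3 with h4 | h4
      · exact absurd h4 hu0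
      · exact h4
    have he1pow : ∀ k : ℕ, e1 (w ^ k) = k * e1 w := by
      intro k
      induction k with
      | zero =>
        have h1 := (hc.add 1 W.one_mem 1 W.one_mem).1
        rw [mul_one] at h1
        rw [pow_zero, Nat.cast_zero, zero_mul]
        exact left_eq_add.1 h1
      | succ k ih =>
        rw [pow_succ, (hc.add _ (W.pow_mem hw k) _ hw).1, ih]
        push_cast; ring
    have he1 : e1 w = 0 := by
      have h2 := (hc.tor w hw).1
      rw [hxw, he1pow, hllam] at h2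
      have h3 : lam * (lam - 1) * e1 w = 0 := by linear_combination h2
      rcases mul_eq_zero.1 h3 with h4 | h4
      · rcases mul_eq_zero.1 h4 with h5 | h5
        · exact absurd h5 hlam0
        · exact absurd (sub_eq_zero.1 h5) hlam1
      · exact h4
    have hev : ev w = 1 := by
      change Multiplicative.ofAdd ![e1 w, e2 w] = 1
      rw [he1, he2]
      apply Multiplicative.toAdd.injective
      funext t
      fin_cases t <;> rfl
    apply Subtype.ext
    apply Prod.ext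
    · change x ^ j * (u ^ i * w) = 1
      rw [hxj, one_mul, h1]
    · change (diag (dgp lam hlam0)) ^ j * ((diag (upp (χ u))) ^ i * transl (ev w)) = 1
      rw [hDj, hUi, hev, map_one, one_mul, one_mul]
  · -- surjectivity
    have key : Cfsg.fOver (ZMod p) ≤ Γ.map (MonoidHom.snd G _) := by
      refine (Subgroup.closure_le _).2 ?_
      rintro A ⟨h10, h20, h21, h22⟩
      obtain ⟨v, B, rfl⟩ := exists_of_row A h20 h21 h22
      have hB : B.1 1 0 = 0 := by
        have h3 : ((transl v * diag B : Matrix.SpecialLinearGroup (Fin 3) (ZMod p)) :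
            Matrix (Fin 3) (Fin 3) (ZMod p)) 1 0 = B.1 1 0 := by
          rw [Matrix.SpecialLinearGroup.coe_mul, transl_apply, diag_apply]
          simp [Matrix.mul_apply, Fin.sum_univ_three]
        rw [← h3]; exact h10
      obtain ⟨a, ha, s, rfl⟩ := eq_upp_mul_dg B hB
      refine mul_mem ?_ ?_
      · -- translations
        obtain ⟨w, hw, hw1, hw2⟩ := hc.sur ((Multiplicative.toAdd v) 0) ((Multiplicative.toAdd v) 1)
        refine ⟨(w, transl (ev w)), hΓ₁le ((hmem₁ _).2 ⟨w, hw, rfl⟩), ?_⟩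
        change transl (ev w) = transl v
        congr 1
        change Multiplicative.ofAdd ![e1 w, e2 w] = v
        rw [hw1, hw2]
        apply Multiplicative.toAdd.injective
        funext t
        fin_cases t <;> rfl
      · rw [map_mul]
        refine mul_mem ?_ ?_
        · -- unipotent elements
          have h3 : ∃ i : ℕ, (i : ZMod p) * χ u = s := by
            refine ⟨(s * (χ u)⁻¹).val, ?_⟩
            rw [ZMod.natCast_zmod_val, mul_assoc, inv_mul_cancel₀ hu0, mul_one]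
          obtain ⟨i, rfl⟩ := h3
          refine ⟨uU ^ i, Γ.pow_mem huΓ i, ?_⟩
          change (diag (upp (χ u))) ^ i = _
          rw [← map_pow, upp_pow]
        · obtain ⟨j, rfl⟩ := hlamgen a ha
          refine ⟨xD ^ j, Γ.pow_mem hxΓ j, ?_⟩
          change (diag (dgp lam hlam0)) ^ j = _
          rw [← map_pow, dg_pow]
    rintro ⟨A, hA⟩
    obtain ⟨γ, hγ, hγA⟩ := key hA
    exact ⟨⟨γ, hγ⟩, Subtype.ext hγA⟩

end Cfsg.Agent.H219.FInv
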