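import Cfsg.Agent.H219.NatGrp
import Cfsg.Agent.H219.FConf

/-!
From a quadratic pair `a, b` on an elementary abelian normal subgroup to a configuration.
-/

set_option autoImplicit false

namespace Cfsg.Agent.H219.Finish

open Subgroup
open Cfsg.Agent.Lib.GoldschmidtFusion
open Cfsg.Agent.Walter.GlaubermanFusion
open Cfsg.Agent.H219.Conf Cfsg.Agent.H219.NatGrp

variable {G : Type*} [Group G] {p : ℕ} {lam : ZMod p}

/-- `g` is a `p`-element acting quadratically on `B`. -/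
def Quad (p : ℕ) (B : Subgroup G) (g : G) : Prop :=
  (∃ n : ℕ, g ^ p ^ n = 1) ∧ ∀ x ∈ B, g * (g * x * g⁻¹ * x⁻¹) * g⁻¹ = g * x * g⁻¹ * x⁻¹

theorem Quad.conj {B : Subgroup G} [hB : B.Normal] {g : G} (h : Quad p B g) (k : G) :
    Quad p B (k * g * k⁻¹) := by
  obtain ⟨⟨n, hn⟩, hq⟩ := h
  refine ⟨⟨n, by rw [conj_pow, hn]; group⟩, ?_⟩
  intro x hx
  have h1 := hq (k⁻¹ * x * k) (by
    have := hB.conj_mem x hx k⁻¹
    rwa [inv_inv] at this)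
  have h2 := congrArg (fun t => k * t * k⁻¹) h1
  have e1 : k * g * k⁻¹ * (k * g * k⁻¹ * x * (k * g * k⁻¹)⁻¹ * x⁻¹) * (k * g * k⁻¹)⁻¹ =
      k * (g * (g * (k⁻¹ * x * k) * g⁻¹ * (k⁻¹ * x * k)⁻¹) * g⁻¹) * k⁻¹ := by group
  have e2 : k * g * k⁻¹ * x * (k * g * k⁻¹)⁻¹ * x⁻¹ =
      k * (g * (k⁻¹ * x * k) * g⁻¹ * (k⁻¹ * x * k)⁻¹) * k⁻¹ := by group
  rw [e1, e2, h2]

theorem isPGroup_of_exp {B : Subgroup G} (hBexp : ∀ x ∈ B, x ^ p = 1) : IsPGroup p B := by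
  intro x
  exact ⟨1, Subtype.ext (by rw [pow_one]; exact hBexp x x.2)⟩

theorem finish [Finite G] [hpf : Fact p.Prime] (hp : p ≠ 2) (hlam : lam ≠ 0)
    {S Z B : Subgroup G} (hS : IsPGroup p S) (hi : ¬ p ∣ S.relIndex (normalizer (Z : Set G)))
    [hBn : B.Normal] (hBH : B ≤ normalizer (Z : Set G))
    (hBab : ∀ x ∈ B, ∀ y ∈ B, x * y = y * x) (hBexp : ∀ x ∈ B, x ^ p = 1)
    {a b y : G} (ha : Quad p B a) (hb : Quad p B b) (hyB : y ∈ B) (hyZ : y ∈ Z)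
    (hy : a * y * a⁻¹ = y) {K : Subgroup G} (hK : Subgroup.closure ({a, b} : Set G) = K)
    (hnp : ∃ k ∈ K, (orderOf k).Coprime p ∧ k * y * k⁻¹ ≠ y)
    {P₀ : Subgroup G} (hP₀K : P₀ ≤ K) (hP₀ : IsPGroup p P₀) (hidx : ¬ p ∣ P₀.relIndex K)
    (haP : a ∈ P₀) (hP₀H : P₀ ≤ normalizer (Z : Set G))
    (hN : ∀ x ∈ K, x ∈ normalizer (P₀ : Set G) → x ∈ normalizer (Z : Set G)) :
    FConf p lam S (normalizer (Z : Set G)) Z := by
  have hnp' : ∃ k ∈ K, ∀ n : ℕ, ∃ l ∈ K,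
      k ^ p ^ n * (l * y * l⁻¹) * (k ^ p ^ n)⁻¹ ≠ l * y * l⁻¹ := by
    obtain ⟨k, hk, hcop, hne⟩ := hnp
    refine ⟨k, hk, fun n => ⟨1, K.one_mem, fun h => hne ?_⟩⟩
    rw [one_mul, inv_one, mul_one] at h
    have h1 : k ^ p ^ n ∈ centralizer ({y} : Set G) := by
      rw [mem_centralizer_iff]
      intro t ht
      rw [Set.mem_singleton_iff] at ht
      rw [ht]
      exact (mul_inv_eq_iff_eq_mul.1 h).symm
    have h2 : k ∈ zpowers (k ^ p ^ n) := by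
      have h3 : (orderOf k).Coprime (p ^ n) := Nat.Coprime.pow_right n hcop
      obtain ⟨m, hm⟩ := exists_pow_eq_self_of_coprime (x := k) h3.symm
      have h5 := pow_mem (mem_zpowers (k ^ p ^ n)) m
      rwa [hm] at h5
    have h3 : k ∈ centralizer ({y} : Set G) := by
      have h4 : zpowers (k ^ p ^ n) ≤ centralizer ({y} : Set G) := by rwa [zpowers_le]
      exact h4 h2
    have h4 := (mem_centralizer_iff.1 h3) y rfl
    rw [← h4, mul_inv_cancel_right]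
  obtain ⟨W, e1, e2, Q₀, x, hWB, hyW, h1, h2, hadd, hsur, hQ, hxK, hxP, hxQ, hxW, hq, hq', hx⟩ :=
    exists_natural (lam := lam) hp B hBab hBexp K (fun k _ x hx => hBn.conj_mem x hx k) a b hK ha.2
      hb.2 y hyB hy hnp' P₀ hP₀K hP₀ hidx haP hlam
  have hQ₀W : Q₀ ≤ normalizer (W : Set G) := by
    intro q hqQ
    rw [mem_normalizer_iff_map_conj]
    apply map_conj_le_of_le_normalizer
    rintro _ ⟨w, hw, rfl⟩
    obtain ⟨c, hc⟩ := hq q hqQ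
    exact (hc w hw).1
  have hmem : ∀ q ∈ W ⊔ Q₀, ∃ w₀ ∈ W, ∃ q₀ ∈ Q₀, q = w₀ * q₀ := by
    intro q hqQ
    have h3 : q ∈ (((Q₀ ⊔ W : Subgroup G)) : Set G) := by
      rw [sup_comm]; exact hqQ
    rw [coe_mul_of_left_le_normalizer_right _ _ hQ₀W] at h3
    obtain ⟨s, hs, c, hc, rfl⟩ := Set.mem_mul.1 h3
    exact ⟨s * c * s⁻¹, (Subgroup.mem_normalizer_iff.1 (hQ₀W hs) c).1 hc, s, hs, by group⟩
  have hWab : ∀ w₀ ∈ W, ∀ w ∈ W, w₀ * w * w₀⁻¹ = w := by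
    intro w₀ hw₀ w hw
    rw [hBab _ (hWB hw₀) _ (hWB hw), mul_inv_cancel_right]
  have hcore : Core p lam W (W ⊔ Q₀) e1 e2 x := by
    refine ⟨le_sup_left, ?_, hxW, hadd, hsur, ?_, ?_, hx⟩
    · rw [mem_normalizer_iff_map_conj, Subgroup.map_sup, mem_normalizer_iff_map_conj.1 hxW,
        mem_normalizer_iff_map_conj.1 hxQ]
    · intro q hqQ
      obtain ⟨w₀, hw₀, q₀, hq₀, rfl⟩ := hmem q hqQ
      obtain ⟨c, hc⟩ := hq q₀ hq₀
      refine ⟨c, fun w hw => ?_⟩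
      have e : w₀ * q₀ * w * (w₀ * q₀)⁻¹ = q₀ * w * q₀⁻¹ := by
        have := hWab w₀ hw₀ _ (hc w hw).1
        calc w₀ * q₀ * w * (w₀ * q₀)⁻¹ = w₀ * (q₀ * w * q₀⁻¹) * w₀⁻¹ := by group
          _ = q₀ * w * q₀⁻¹ := this
      rw [e]
      exact hc w hw
    · obtain ⟨q, hqQ, c, hc0, hc⟩ := hq'
      exact ⟨q, le_sup_right (a := W) hqQ, c, hc0, hc⟩
  have hBp : IsPGroup p B := isPGroup_of_exp hBexp
  have hBP : IsPGroup p (B ⊔ P₀ : Subgroup G) := hBp.to_sup_of_normal_left hP₀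
  have hF : FConf p lam (B ⊔ P₀) (normalizer (Z : Set G)) Z :=
    ⟨W, W ⊔ Q₀, e1, e2, x, hcore, sup_le_sup hWB hQ, hN x hxK hxP, y, hyZ, hyW, h1, h2⟩
  obtain ⟨n, hn, hnle⟩ := exists_conj_le_in (p := p) hS hi (sup_le hBH hP₀H) hBP
  have hF' := hF.conj n
  rw [mem_normalizer_iff_map_conj.1 hn,
    mem_normalizer_iff_map_conj.1 (le_normalizer hn)] at hF'
  exact hF'.mono hnle le_rfl le_rfl

end Cfsg.Agent.H219.Finish
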