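import Cfsg.Agent.H219.Red
import Cfsg.Agent.PLocal.ZJ

/-!
The first half of the centric case: a quadratic element outside `O_p(G)`.
-/

set_option autoImplicit false

namespace Cfsg.Agent.H219.LOne

open Subgroup Cfsg
open scoped commutatorElement
open Cfsg.Agent.PLocal Cfsg.Agent.PLocal.ZJ
open Cfsg.Agent.H219.Red

variable {G : Type*} [Group G] [Finite G] {p : ℕ} [hpf : Fact p.Prime]

theorem card_lt {X Y : Subgroup G} (hXY : X < Y) : Nat.card X < Nat.card Y :=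
  ConjFunctor.card_lt_card_of_lt hXY

/-- `Z ∩ O_p(G)` is not normal. -/
theorem not_normal_inf {S Z : Subgroup G} (h : Hyp p S Z)
    (hcent : centralizer (pCore p G : Set G) ≤ pCore p G)
    (htop : normalizer (Z : Set G) ≠ ⊤) : ¬ (Z ⊓ pCore p G).Normal := by
  intro hT
  set Y := pCore p G with hY
  have hYn : Y.Normal := Lib.Cores.pCore_normal p
  have hYp : IsPGroup p Y := Lib.Cores.pCore_isPGroup p
  have hYS : Y ≤ S := Lib.Cores.pCore_le_sylow (h.pS.toSylow h.syl)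
  have hZc : ∀ x ∈ Z, ∀ y ∈ Z, x * y = y * x := by
    intro x hx y hy
    have h1 := ThompsonJA.isMulCommutative_centerThompsonAOf S
    exact Replacement.mul_comm_of_isMulCommutative h1 (h.zj hx) (h.zj hy)
  set N := normalClosure (Z : Set G) with hN
  have hNn : N.Normal := normalClosure_normal
  have h1 : ⁅Y, N⁆ ≤ Z ⊓ Y := by
    refine commutator_normalClosure_le hYn hT ?_
    intro b hb z hz
    refine ⟨?_, ?_⟩
    · rw [commutatorElement_def]
      exact Z.mul_mem ((Subgroup.mem_normalizer_iff.mp (h.le_norm (hYS hb)) z).mp hz)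
        (Z.inv_mem hz)
    · have e : ⁅b, z⁆ = b * (z * b⁻¹ * z⁻¹) := by rw [commutatorElement_def]; group
      rw [e]
      exact Y.mul_mem hb (hYn.conj_mem _ (Y.inv_mem hb) z)
  have h2 : ⁅Z ⊓ Y, N⁆ ≤ ⊥ := by
    refine commutator_normalClosure_le hT inferInstance ?_
    intro b hb z hz
    rw [Subgroup.mem_bot, commutatorElement_eq_one_iff_mul_comm]
    exact hZc b hb.1 z hz
  have hpp : ∀ n ∈ N, (orderOf n).Coprime p → n = 1 := by
    intro n hn hcop
    have h3 : n ∈ centralizer (Y : Set G) := by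
      rw [mem_centralizer_iff]
      intro y hy
      have h4 : ⁅y, n⁆ ∈ Z ⊓ Y := h1 (commutator_mem_commutator hy hn)
      have h5 : ⁅⁅y, n⁆, n⁆ ∈ (⊥ : Subgroup G) := h2 (commutator_mem_commutator h4 hn)
      rw [Subgroup.mem_bot, commutatorElement_eq_one_iff_mul_comm] at h5
      have hcard : (orderOf n).Coprime (Nat.card Y) := by
        obtain ⟨j, hj⟩ := IsPGroup.iff_card.mp hYp
        rw [hj]; exact Nat.Coprime.pow_right j hcop
      exact Lib.CoprimeStab.commute_of_commutator_commute hcard h4.2 h5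
    obtain ⟨m, hm⟩ := hYp ⟨n, hcent h3⟩
    have h6 : n ^ p ^ m = 1 := congrArg Subtype.val hm
    have h7 : orderOf n = 1 :=
      Nat.eq_one_of_dvd_coprimes (Nat.Coprime.pow_right m hcop) dvd_rfl (orderOf_dvd_of_pow_eq_one h6)
    exact orderOf_eq_one_iff.1 h7
  have hNp : IsPGroup p N := by
    rintro ⟨n, hn⟩
    obtain ⟨k, m, hm, hkm⟩ := Nat.exists_eq_pow_mul_and_not_dvd (orderOf_pos n).ne' p
      hpf.out.one_lt.ne'
    refine ⟨k, Subtype.ext ?_⟩
    change n ^ p ^ k = 1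
    refine hpp _ (pow_mem hn _) ?_
    rw [orderOf_pow_of_dvd (pow_ne_zero _ hpf.out.ne_zero) (by rw [hkm]; exact Dvd.intro _ rfl), hkm,
      Nat.mul_div_cancel_left _ (pow_pos hpf.out.pos _)]
    exact ((Nat.Prime.coprime_iff_not_dvd hpf.out).2 hm).symm
  have hNY : N ≤ Y := Lib.Cores.le_pCore hNn hNp
  have hZY : Z ⊓ Y = Z := inf_eq_left.2 (le_normalClosure.trans hNY)
  rw [hZY] at hT
  exact htop (normalizer_eq_top_iff.2 hT)

/-- Some abelian subgroup of `S` of largest order is not in `O_p(G)`. -/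
theorem exists_maxAb_not_le {S Z : Subgroup G} (h : Hyp p S Z)
    (htop : normalizer (Z : Set G) ≠ ⊤) : ∃ A ∈ maxAb 0 S, ¬ A ≤ pCore p G := by
  by_contra hcon
  push Not at hcon
  have hYn : (pCore p G).Normal := Lib.Cores.pCore_normal p
  have hYS : pCore p G ≤ S := Lib.Cores.pCore_le_sylow (h.pS.toSylow h.syl)
  obtain ⟨A, hA⟩ := maxAb_nonempty 0 S
  have h1 := maxAb_eq_of_le hYS hA (hcon A hA)
  have h2 : maxAb 0 (pCore p G) = maxAb 0 S := by
    rw [h1]
    ext A'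
    exact ⟨fun h => h.1, fun h => ⟨h, hcon A' h⟩⟩
  apply htop
  rw [eq_top_iff, ← normalizer_eq_top_iff.2 hYn]
  refine (normalizer_le_normalizer_sInf 0 (pCore p G)).trans ?_
  rw [h2, ← centerThompsonAOf_eq]
  exact h.nn

theorem l_one (hp : p ≠ 2) {S Z : Subgroup G} (h : Hyp p S Z)
    (hcent : centralizer (pCore p G : Set G) ≤ pCore p G)
    (htop : normalizer (Z : Set G) ≠ ⊤) :
    ∃ B : Subgroup G, B.Normal ∧ B ≤ pCore p G ∧ ¬ (Z ⊓ B).Normal ∧ ⁅B, B⁆ ≤ Z ⊓ B ∧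
      ∃ a ∈ S, a ∉ pCore p G ∧ ∀ x ∈ B, a * (a * x * a⁻¹ * x⁻¹) * a⁻¹ = a * x * a⁻¹ * x⁻¹ := by
  classical
  set Y := pCore p G with hY
  have hYn : Y.Normal := Lib.Cores.pCore_normal p
  have hYp : IsPGroup p Y := Lib.Cores.pCore_isPGroup p
  have hYS : Y ≤ S := Lib.Cores.pCore_le_sylow (h.pS.toSylow h.syl)
  have hZZ : Z ≤ sInf (maxAb 0 S) := by
    rw [← centerThompsonAOf_eq]; exact h.zj
  have hZA : ∀ A ∈ maxAb 0 S, Z ≤ A := fun A hA => hZZ.trans (sInf_le hA)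
  obtain ⟨A00, hA00⟩ := maxAb_nonempty 0 S
  have hZc : ∀ x ∈ Z, ∀ y ∈ Z, x * y = y * x := fun x hx y hy =>
    Replacement.mul_comm_of_isMulCommutative hA00.2.1.1 (hZA _ hA00 hx) (hZA _ hA00 hy)
  -- minimal `B`
  obtain ⟨B, ⟨hBn, hBY, hcon⟩, hBmin⟩ := Set.exists_min_image
    {B : Subgroup G | B.Normal ∧ B ≤ Y ∧ ¬ (Z ⊓ B).Normal} (fun B => Nat.card B) (Set.toFinite _)
    ⟨Y, hYn, le_rfl, not_normal_inf h hcent htop⟩
  have hB : IsPGroup p B := hYp.to_le hBY
  have hBS : B ≤ S := hBY.trans hYS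
  have ih' : ∀ B' : Subgroup G, B'.Normal → B' < B → (Z ⊓ B').Normal := by
    intro B' hB'n hlt
    by_contra hnot
    exact absurd (hBmin B' ⟨hB'n, hlt.le.trans hBY, hnot⟩) (not_le.2 (card_lt hlt))
  -- step 1: B is the normal closure of B ⊓ Z
  have hB1 : normalClosure ((Z ⊓ B : Subgroup G) : Set G) = B := by
    have hle : normalClosure ((Z ⊓ B : Subgroup G) : Set G) ≤ B :=
      Subgroup.normalClosure_le_normal (fun x hx => hx.2)
    by_contra hne
    have h1 := ih' _ Subgroup.normalClosure_normal (lt_of_le_of_ne hle hne)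
    have h2 : Z ⊓ normalClosure ((Z ⊓ B : Subgroup G) : Set G) = Z ⊓ B := by
      apply le_antisymm
      · exact inf_le_inf_left _ hle
      · exact le_inf inf_le_left Subgroup.le_normalClosure
    rw [h2] at h1
    exact hcon h1
  have hBbot : B ≠ ⊥ := by
    rintro rfl
    apply hcon
    rw [inf_bot_eq]
    infer_instance
  -- step 2: B' < B
  have hBBn : (⁅B, B⁆ : Subgroup G).Normal := Subgroup.commutator_normal B B
  have hBBle : ⁅B, B⁆ ≤ B := Subgroup.commutator_le_left B B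
  have hBBlt : ⁅B, B⁆ < B := by
    refine lt_of_le_of_ne hBBle ?_
    intro h
    have : Group.IsNilpotent B := hB.isNilpotent
    have : Nontrivial B := (Subgroup.nontrivial_iff_ne_bot B).mpr hBbot
    have h1 : commutator B < ⊤ := Group.IsSolvable.commutator_lt_top_of_nontrivial B
    apply h1.ne
    have h2 : (commutator B).map B.subtype = ⁅B, B⁆ := by
      rw [commutator_def, Subgroup.map_commutator, ← MonoidHom.range_eq_map, Subgroup.range_subtype]
    rw [h] at h2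
    rw [eq_top_iff]
    intro x _
    have h3 : (x : G) ∈ (commutator B).map B.subtype := by rw [h2]; exact x.2
    obtain ⟨y, hy, hyx⟩ := h3
    have : y = x := Subtype.ext hyx
    rwa [← this]
  have hT : (Z ⊓ ⁅B, B⁆).Normal := ih' _ hBBn hBBlt
  -- step 3: ⁅B,B⁆ ≤ Z
  have hBZ : ⁅B, B⁆ ≤ Z ⊓ ⁅B, B⁆ := by
    have h1 : ⁅B, normalClosure ((Z ⊓ B : Subgroup G) : Set G)⁆ ≤ Z ⊓ ⁅B, B⁆ := by
      refine commutator_normalClosure_le hBn hT ?_
      intro b hb z hz
      refine ⟨?_, Subgroup.commutator_mem_commutator hb hz.2⟩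
      rw [commutatorElement_def]
      exact Z.mul_mem ((Subgroup.mem_normalizer_iff.mp (h.le_norm (hBS hb)) z).mp hz.1)
        (Z.inv_mem hz.1)
    rwa [hB1] at h1
  have hBZ' : ⁅B, B⁆ ≤ Z := hBZ.trans inf_le_left
  -- step 4: class at most two
  have hcl : ⁅⁅B, B⁆, B⁆ = ⊥ := by
    rw [eq_bot_iff]
    have h1 : ⁅⁅B, B⁆, normalClosure ((Z ⊓ B : Subgroup G) : Set G)⁆ ≤ ⊥ := by
      refine commutator_normalClosure_le hBBn inferInstance ?_
      intro b hb z hz
      rw [Subgroup.mem_bot, commutatorElement_eq_one_iff_mul_comm]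
      exact hZc b (hBZ' hb) z hz.1
    rwa [hB1] at h1
  have hSB : S ≤ normalizer (B : Set G) := by
    rw [normalizer_eq_top_iff.2 hBn]
    exact le_top
  -- a member of `maxAb` normalized by `B` and not in `Y` is enough
  have hfin : ∀ A ∈ maxAb 0 S, B ≤ normalizer (A : Set G) → ¬ A ≤ Y →
      ∃ a ∈ S, a ∉ Y ∧ ∀ x ∈ B, a * (a * x * a⁻¹ * x⁻¹) * a⁻¹ = a * x * a⁻¹ * x⁻¹ := by
    intro A hA hBA hAY
    obtain ⟨a, haA, haY⟩ := Set.not_subset.1 hAY
    refine ⟨a, hA.1 haA, haY, ?_⟩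
    intro x hx
    have h1 : a * x * a⁻¹ * x⁻¹ ∈ A := by
      have h2 : a * (x * a⁻¹ * x⁻¹) ∈ A :=
        A.mul_mem haA ((Subgroup.mem_normalizer_iff.mp (hBA hx) _).mp (A.inv_mem haA))
      have e : a * (x * a⁻¹ * x⁻¹) = a * x * a⁻¹ * x⁻¹ := by group
      rwa [e] at h2
    rw [Replacement.mul_comm_of_isMulCommutative hA.2.1.1 haA h1, mul_inv_cancel_right]
  -- step 5: choose A with |A ∩ B| maximal
  obtain ⟨A, hA, hAmax⟩ := Set.exists_max_image (maxAb 0 S)
    (fun A => Nat.card (A ⊓ B : Subgroup G)) (Set.toFinite _) ⟨A00, hA00⟩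
  have hAN : B ≤ normalizer (A : Set G) := by
    by_contra hnot
    obtain ⟨A', hA', hlt, _⟩ := exists_replacement hp (Or.inl rfl) h.pS hA hBS hSB hcl
      (hBZ'.trans (hZA A hA)) hnot
    exact absurd (hAmax A' hA') (not_le.mpr (card_lt hlt))
  refine ⟨B, hBn, hBY, hcon, le_inf hBZ' hBBle, ?_⟩
  by_cases hAY : A ≤ Y
  swap
  · exact hfin A hA hAN hAY
  have hmaxQ := maxAb_eq_of_le (S := S) (Q := Y) hYS hA hAY
  have hYJn : (sInf (maxAb 0 Y) : Subgroup G).Normal := by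
    rw [← normalizer_eq_top_iff, eq_top_iff, ← normalizer_eq_top_iff.2 hYn]
    exact normalizer_le_normalizer_sInf 0 Y
  have hBZQ : B ≤ sInf (maxAb 0 Y) := by
    rw [← hB1]
    refine Subgroup.normalClosure_le_normal ?_
    intro x hx
    refine hZZ.trans ?_ hx.1
    refine le_sInf fun A' hA' => ?_
    rw [hmaxQ] at hA'
    exact sInf_le hA'.1
  obtain ⟨A1, ⟨hA1, hA1Y⟩, hA1max⟩ := Set.exists_max_image
    {A' | A' ∈ maxAb 0 S ∧ ¬ A' ≤ Y}
    (fun A => Nat.card (A ⊓ B : Subgroup G)) (Set.toFinite _)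
    (by obtain ⟨A1, h1, h2⟩ := exists_maxAb_not_le h htop; exact ⟨A1, h1, h2⟩)
  by_cases hnot : B ≤ normalizer (A1 : Set G)
  · exact hfin A1 hA1 hnot hA1Y
  exfalso
  obtain ⟨A', hA', hlt, hnorm⟩ := exists_replacement hp (Or.inl rfl) h.pS hA1 hBS hSB hcl
    (hBZ'.trans (hZA A1 hA1)) hnot
  have hA'Y : A' ≤ Y := by
    by_contra h
    exact absurd (hA1max A' ⟨hA', h⟩) (not_le.mpr (card_lt hlt))
  have hA'Q : A' ∈ maxAb 0 Y := by
    rw [hmaxQ]
    exact ⟨hA', hA'Y⟩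
  exact hnot ((hBZQ.trans (sInf_le hA'Q)).trans hnorm)

end Cfsg.Agent.H219.LOne
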