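import Cfsg.Agent.H219.SLTwo

/-!
Quadratic pairs on irreducible modules, with control of the Sylow subgroup and of the torus element.
-/

set_option autoImplicit false

namespace Cfsg.Agent.H219.NatIrr

open Matrix Subgroup
open Cfsg.Agent.PLocal.QuadraticPair Cfsg.Agent.PLocal.QuadraticNatural
  Cfsg.Agent.PLocal.QuadraticSection Cfsg.Agent.PLocal.QuadraticDickson
open Cfsg.Agent.H219.SLTwo
open Cfsg.Agent.Lib.GoldschmidtFusion

universe u v

/-- A natural section of the module `V` for a Borel type subgroup `Q₀⟨x⟩`, `x` normalizing the `p`-subgroup `P₀`, in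
which the vector `y` is the first basis vector. -/
def HasNat (p : ℕ) {K : Type v} [Group K] {V : Type u} [AddCommGroup V] [Module (ZMod p) V]
    (ρ : K →* Module.End (ZMod p) V) (P₀ : Subgroup K) (y : V) (lam : ZMod p) : Prop :=
  ∃ (W : AddSubgroup V) (e1 e2 : V → ZMod p) (Q₀ : Subgroup K) (x : K),
    y ∈ W ∧ e1 y = 1 ∧ e2 y = 0 ∧
    (∀ w ∈ W, ∀ w' ∈ W, e1 (w + w') = e1 w + e1 w' ∧ e2 (w + w') = e2 w + e2 w') ∧
    (∀ s t, ∃ w ∈ W, e1 w = s ∧ e2 w = t) ∧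
    Q₀ ≤ P₀ ∧ x ∈ normalizer (P₀ : Set K) ∧ x ∈ normalizer (Q₀ : Set K) ∧
    (∀ q ∈ Q₀, ∃ c, ∀ w ∈ W, ρ q w ∈ W ∧ e1 (ρ q w) = e1 w + c * e2 w ∧ e2 (ρ q w) = e2 w) ∧
    (∃ q ∈ Q₀, ∃ c, c ≠ 0 ∧ ∀ w ∈ W, e1 (ρ q w) = e1 w + c * e2 w ∧ e2 (ρ q w) = e2 w) ∧
    (∀ w ∈ W, ρ x w ∈ W ∧ ρ x⁻¹ w ∈ W ∧ e1 (ρ x w) = lam * e1 w ∧ e2 (ρ x w) = lam⁻¹ * e2 w)

/-- An element of `K` mapping onto the `p`-element `g` under `φ` can be chosen of `p`-power order. -/
theorem exists_pElement_lift {p : ℕ} [hpf : Fact p.Prime] {K L : Type*} [Group K] [Finite K] [Group L]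
    (φ : K →* L) (k : K) (hk : (φ k) ^ p = 1) :
    ∃ k', φ k' = φ k ∧ ∃ n, k' ^ p ^ n = 1 := by
  obtain ⟨j, m, hm, hkm⟩ := Nat.exists_eq_pow_mul_and_not_dvd (orderOf_pos k).ne' p
    hpf.out.one_lt.ne'
  have hcop : Nat.Coprime m p := ((Nat.Prime.coprime_iff_not_dvd hpf.out).2 hm).symm
  obtain ⟨r, hr⟩ := Nat.exists_mul_mod_eq_one_of_coprime hcop hpf.out.one_lt
  refine ⟨k ^ (m * r), ?_, j, ?_⟩
  · rw [map_pow]
    have h1 : m * r = p * (m * r / p) + 1 := by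
      conv_lhs => rw [← Nat.div_add_mod (m * r) p, hr.2]
    rw [h1, pow_add, pow_mul, hk, one_pow, one_mul, pow_one]
  · rw [← pow_mul]
    have h2 : m * r * p ^ j = orderOf k * r := by rw [hkm]; ring
    rw [h2, pow_mul, pow_orderOf_eq_one, one_pow]

theorem upp_mulVec_fixed {E : Type*} [Field E] {s : E} (hs : s ≠ 0) (c : Fin 2 → E)
    (h : !![1, s; 0, 1] *ᵥ c = c) : c 1 = 0 := by
  have h2 := congrFun h 0
  simp only [Matrix.mulVec, dotProduct, Fin.sum_univ_two] at h2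
  have h3 : (1 : E) * c 0 + s * c 1 = c 0 := h2
  have h4 : s * c 1 = 0 := by linear_combination h3
  rcases mul_eq_zero.1 h4 with h5 | h5
  · exact absurd h5 hs
  · exact h5

theorem irr_case {p : ℕ} [hpf : Fact p.Prime] (hp : p ≠ 2) {K : Type v} [Group K] [Finite K]
    {V : Type u} [AddCommGroup V] [Module (ZMod p) V] [Finite V]
    (ρ : K →* Module.End (ZMod p) V) (a b : K) (hab : Subgroup.closure ({a, b} : Set K) = ⊤)
    (ha : ∀ x, ρ a (ρ a x - x) = ρ a x - x) (hb : ∀ x, ρ b (ρ b x - x) = ρ b x - x)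
    (hirr : ∀ W : Submodule (ZMod p) V, (∀ k, ∀ w ∈ W, ρ k w ∈ W) → W = ⊥ ∨ W = ⊤)
    (hnt : ∃ k x, ρ k x ≠ x) (y : V) (hy0 : y ≠ 0) (hy : ρ a y = y)
    (P₀ : Subgroup K) (hP₀ : IsPGroup p P₀) (hidx : ¬ p ∣ P₀.index) (haP : a ∈ P₀)
    (lam : ZMod p) (hlam : lam ≠ 0) : HasNat p ρ P₀ y lam := by
  classical
  obtain ⟨E, iF, iFt, iC, e, φ, μ, hμ, hφ, hφa, hφb⟩ :=
    exists_sl_two_structure ρ a b hab ha hb hirr hnt
  have hφa' : φ a = upp μ := Subtype.ext hφa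
  have hφb' : φ b = low 1 := Subtype.ext hφb
  have hrange : φ.range = Subgroup.closure {upp μ, low 1} := by
    rw [MonoidHom.range_eq_map, ← hab, MonoidHom.map_closure, Set.image_pair, hφa', hφb']
  obtain ⟨D, hDle, ⟨δ⟩⟩ := dicksonSL2 p hp E φ.range (one_lt_card_sylow φ.range μ hμ hrange)
  let ψ : Matrix.SpecialLinearGroup (Fin 2) (ZMod p) →* Matrix.SpecialLinearGroup (Fin 2) E :=
    D.subtype.comp δ.symm.toMonoidHom
  have hψinj : Function.Injective ψ := D.subtype_injective.comp δ.symm.injective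
  have hψrange : ∀ g, ψ g ∈ φ.range := fun g => hDle (δ.symm g).2
  let ι : ZMod p →+* E := ZMod.castHom (dvd_refl p) E
  obtain ⟨x₀, y₀, hxy, hnat⟩ := exists_natural_submodule hp ψ hψinj ι
  -- a `p`-element `u₂ ∈ P₀` conjugate to `ψ (upp 1)`
  obtain ⟨u₀, hu₀⟩ := hψrange (upp 1)
  have hψup : (ψ (upp 1)) ^ p = 1 := by
    rw [← map_pow, upp_pow, CharP.cast_eq_zero, zero_mul, upp_zero, map_one]
  obtain ⟨u₁, hu₁, n₁, hn₁⟩ := exists_pElement_lift (p := p) φ u₀ (by rw [hu₀]; exact hψup)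
  have hzp : IsPGroup p (zpowers u₁) := by
    rintro ⟨z, hz⟩
    obtain ⟨m, rfl⟩ := Subgroup.mem_zpowers_iff.1 hz
    refine ⟨n₁, Subtype.ext ?_⟩
    change (u₁ ^ m) ^ p ^ n₁ = 1
    rw [← zpow_natCast, ← _root_.zpow_mul, mul_comm, _root_.zpow_mul, zpow_natCast, hn₁, _root_.one_zpow]
  obtain ⟨k₁, -, hk₁⟩ := exists_conj_le_in (p := p) (N := ⊤) hP₀
    (by rwa [relIndex_top_right]) le_top hzp
  set u₂ := k₁ * u₁ * k₁⁻¹ with hu₂
  have hu₂P : u₂ ∈ P₀ := hk₁ (conj_mem_map_conj (mem_zpowers u₁) k₁)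
  set γ := φ k₁ with hγ
  let ψ' : Matrix.SpecialLinearGroup (Fin 2) (ZMod p) →* Matrix.SpecialLinearGroup (Fin 2) E :=
    (MulAut.conj γ).toMonoidHom.comp ψ
  have hψ' : ∀ g, ψ' g = γ * ψ g * γ⁻¹ := fun g => rfl
  have hφu₂ : φ u₂ = ψ' (upp 1) := by
    rw [hu₂, map_mul, map_mul, map_inv, hu₁, hu₀, hψ']
  have hψ'range : ∀ g, ∃ k, φ k = ψ' g := by
    intro g
    obtain ⟨k, hk⟩ := hψrange g
    exact ⟨k₁ * k * k₁⁻¹, by rw [map_mul, map_mul, map_inv, hk, hψ']⟩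
  have hnat' : ∀ g : Matrix.SpecialLinearGroup (Fin 2) (ZMod p),
      (ψ' g).1 *ᵥ (γ.1 *ᵥ x₀) = ι (g.1 0 0) • (γ.1 *ᵥ x₀) + ι (g.1 1 0) • (γ.1 *ᵥ y₀) ∧
      (ψ' g).1 *ᵥ (γ.1 *ᵥ y₀) = ι (g.1 0 1) • (γ.1 *ᵥ x₀) + ι (g.1 1 1) • (γ.1 *ᵥ y₀) := by
    intro g
    have h1 : ∀ c : Fin 2 → E, (ψ' g).1 *ᵥ (γ.1 *ᵥ c) = γ.1 *ᵥ ((ψ g).1 *ᵥ c) := by
      intro c
      rw [← sl_mul_mulVec, ← sl_mul_mulVec, hψ', inv_mul_cancel_right]
    rw [h1, h1, (hnat g).1, (hnat g).2, Matrix.mulVec_add, Matrix.mulVec_add, Matrix.mulVec_smul,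
      Matrix.mulVec_smul, Matrix.mulVec_smul, Matrix.mulVec_smul]
    exact ⟨rfl, rfl⟩
  -- `φ(P₀)` is upper unitriangular
  have hPu : P₀.map φ ≤ uu E := by
    refine le_uu (p := p) hp _ (hP₀.map φ) hμ ?_
    rw [← hφa']
    exact Subgroup.mem_map_of_mem φ haP
  obtain ⟨s₂, hs₂⟩ : ∃ s, φ u₂ = upp s := hPu (Subgroup.mem_map_of_mem φ hu₂P)
  have hs₂0 : s₂ ≠ 0 := by
    intro h
    rw [h, upp_zero, hφu₂, hψ'] at hs₂
    have h1 : ψ (upp 1) = 1 := by
      have h2 := congrArg (fun g => γ⁻¹ * g * γ) hs₂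
      simpa [mul_assoc] using h2
    rw [← map_one ψ] at h1
    have h3 := hψinj h1
    rw [← upp_zero] at h3
    exact one_ne_zero (upp_injective h3)
  -- `γ x₀` is a multiple of the first basis vector
  set X := γ.1 *ᵥ x₀ with hX
  set Y := γ.1 *ᵥ y₀ with hY
  have hx₀ne : x₀ ≠ 0 := by
    intro h
    have := hxy 1 0 (by rw [h]; simp)
    exact one_ne_zero this.1
  have hXne : X ≠ 0 := by
    intro h
    apply hx₀ne
    have h1 : (γ⁻¹ : Matrix.SpecialLinearGroup (Fin 2) E).1 *ᵥ (γ.1 *ᵥ x₀) = x₀ := by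
      rw [← sl_mul_mulVec, inv_mul_cancel, sl_one_mulVec]
    rw [← hX, h, Matrix.mulVec_zero] at h1
    exact h1.symm
  have hX1 : X 1 = 0 := by
    have h1 := (hnat' (upp 1)).1
    rw [← hφu₂, hs₂, coe_upp, coe_upp] at h1
    exact upp_mulVec_fixed hs₂0 X (by simpa using h1)
  have hX0 : X 0 ≠ 0 := by
    intro h
    apply hXne
    funext i
    fin_cases i
    · exact h
    · exact hX1
  have hey1 : e y 1 = 0 := by
    have h1 := hφ a y
    rw [hy, hφa] at h1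
    exact upp_mulVec_fixed hμ (e y) h1.symm
  have hey0 : e y 0 ≠ 0 := by
    intro h
    apply hy0
    apply e.injective
    rw [map_zero]
    funext i
    fin_cases i
    · exact h
    · exact hey1
  set ζ : E := e y 0 / X 0 with hζ
  have hζ0 : ζ ≠ 0 := div_ne_zero hey0 hX0
  have hζX : ζ • X = e y := by
    funext i
    fin_cases i
    · change ζ * X 0 = e y 0
      rw [hζ, div_mul_cancel₀ _ hX0]
    · change ζ * X 1 = e y 1
      rw [hX1, hey1, mul_zero]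
  -- the natural plane
  let g : ZMod p × ZMod p →+ V := AddMonoidHom.mk'
    (fun c => e.symm (ζ • (ι c.1 • X + ι c.2 • Y))) (by
      intro c d
      rw [← map_add]
      congr 1
      rw [Prod.fst_add, Prod.snd_add, map_add, map_add]
      module)
  have hg : ∀ c, e (g c) = ζ • (ι c.1 • X + ι c.2 • Y) := by
    intro c
    change e (e.symm _) = _
    rw [AddEquiv.apply_symm_apply]
  have hginj : Function.Injective g := by
    rw [injective_iff_map_eq_zero]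
    intro c hc
    have h1 := hg c
    rw [hc, map_zero] at h1
    have h2 : ι c.1 • X + ι c.2 • Y = 0 := by
      rcases smul_eq_zero.1 h1.symm with h | h
      · exact absurd h hζ0
      · exact h
    have h3 : γ.1 *ᵥ (ι c.1 • x₀ + ι c.2 • y₀) = 0 := by
      rw [Matrix.mulVec_add, Matrix.mulVec_smul, Matrix.mulVec_smul]
      exact h2
    have h4 : ι c.1 • x₀ + ι c.2 • y₀ = 0 := by
      have h5 : (γ⁻¹ : Matrix.SpecialLinearGroup (Fin 2) E).1 *ᵥ
          (γ.1 *ᵥ (ι c.1 • x₀ + ι c.2 • y₀)) = ι c.1 • x₀ + ι c.2 • y₀ := by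
        rw [← sl_mul_mulVec, inv_mul_cancel, sl_one_mulVec]
      rw [h3, Matrix.mulVec_zero] at h5
      exact h5.symm
    obtain ⟨h5, h6⟩ := hxy _ _ h4
    exact Prod.ext h5 h6
  have hgact : ∀ (k : K) (A : Matrix.SpecialLinearGroup (Fin 2) (ZMod p)), φ k = ψ' A →
      ∀ c : ZMod p × ZMod p, ρ k (g c) =
        g (A.1 0 0 * c.1 + A.1 0 1 * c.2, A.1 1 0 * c.1 + A.1 1 1 * c.2) := by
    intro k A hkA c
    apply e.injective
    rw [hφ, hg, hg, hkA, Matrix.mulVec_smul, Matrix.mulVec_add, Matrix.mulVec_smul,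
      Matrix.mulVec_smul, (hnat' A).1, (hnat' A).2]
    simp only [map_add, map_mul]
    module
  -- the group of elements acting as upper unitriangular matrices
  set Γ₁ : Subgroup K := (uu E).comap φ with hΓ₁
  have hPΓ : P₀ ≤ Γ₁ := fun k hk => hPu (Subgroup.mem_map_of_mem φ hk)
  have hcov : ∀ n ∈ Γ₁, ∃ q ∈ P₀, φ q = φ n := by
    intro n hn
    have h1 : (P₀.map φ).relIndex (Γ₁.map φ) = 1 := by
      have h2 : IsPGroup p (Γ₁.map φ : Subgroup _) :=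
        (uu_isPGroup (p := p) (E := E)).to_le (Subgroup.map_comap_le φ _)
      obtain ⟨j, hj⟩ := IsPGroup.iff_card.1 h2
      have h3 : (P₀.map φ).relIndex (Γ₁.map φ) ∣ p ^ j := by
        rw [← hj]
        exact Subgroup.relIndex_dvd_card _ _
      have h4 : (P₀.map φ).relIndex (Γ₁.map φ) ∣ P₀.relIndex Γ₁ := by
        rw [relIndex_map_map]
        have h5 : φ.ker ≤ Γ₁ := by
          intro k hk
          change φ k ∈ uu E
          rw [MonoidHom.mem_ker.1 hk]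
          exact one_mem _
        rw [sup_eq_left.2 h5]
        exact relIndex_dvd_of_le_left _ le_sup_left
      have h6 : ¬ p ∣ P₀.relIndex Γ₁ := fun h => hidx (h.trans (relIndex_dvd_index_of_le hPΓ))
      have h7 : Nat.Coprime (p ^ j) (P₀.relIndex Γ₁) :=
        Nat.Coprime.pow_left _ ((Nat.Prime.coprime_iff_not_dvd hpf.out).2 h6)
      exact Nat.eq_one_of_dvd_coprimes h7 h3 h4
    have h2 := Subgroup.relIndex_eq_one.1 h1 (Subgroup.mem_map_of_mem φ hn)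
    obtain ⟨q, hq, hqn⟩ := h2
    exact ⟨q, hq, hqn⟩
  -- the torus element
  obtain ⟨k₂, hk₂⟩ := hψ'range (dg lam hlam)
  have hk₂N : ∀ n ∈ Γ₁, k₂ * n * k₂⁻¹ ∈ Γ₁ := by
    intro n hn
    obtain ⟨s, hs⟩ : ∃ s, φ n = upp s := hn
    -- `φ k₂` fixes the line spanned by `X`
    have h1 := (hnat' (dg lam hlam)).1
    have h2 : (φ k₂).1 1 0 = 0 := by
      rw [← hk₂] at h1
      have h3 := congrFun h1 1
      have e0 : (dg lam hlam).1 1 0 = 0 := rfl
      rw [e0, map_zero, zero_smul, add_zero, mulVec_fin_two] at h3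
      simp [hX1] at h3
      rcases h3 with h3 | h3
      · exact h3
      · exact absurd h3 hX0
    change φ (k₂ * n * k₂⁻¹) ∈ uu E
    have hdet : (φ k₂).1 0 0 * (φ k₂).1 1 1 - (φ k₂).1 0 1 * (φ k₂).1 1 0 = 1 := by
      rw [← Matrix.det_fin_two]; exact (φ k₂).2
    refine ⟨(φ k₂).1 0 0 * (φ k₂).1 0 0 * s, ?_⟩
    rw [map_mul, map_mul, map_inv, mul_inv_eq_iff_eq_mul, hs]
    apply Subtype.ext
    rw [Matrix.SpecialLinearGroup.coe_mul, Matrix.SpecialLinearGroup.coe_mul, coe_upp, coe_upp]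
    rw [h2, mul_zero, sub_zero] at hdet
    ext i j
    fin_cases i <;> fin_cases j <;> simp [Matrix.mul_apply, Fin.sum_univ_two, h2]
    linear_combination ((φ k₂).1 0 0 * s) * hdet * (-1)
  obtain ⟨n₃, hn₃, hn₃le⟩ := exists_conj_le_in (p := p) (N := Γ₁) (R := P₀)
    (D := P₀.map (MulAut.conj k₂).toMonoidHom) hP₀
    (fun h => hidx (h.trans (relIndex_dvd_index_of_le hPΓ)))
    (by
      rintro _ ⟨q, hq, rfl⟩
      exact hk₂N q (hPΓ hq)) (hP₀.map _)
  rw [map_conj_map_conj] at hn₃le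
  have hn₃N : n₃ * k₂ ∈ normalizer (P₀ : Set K) :=
    mem_normalizer_iff_map_conj.2 (map_conj_le_of_le_normalizer hn₃le)
  obtain ⟨q₃, hq₃, hq₃n⟩ := hcov n₃ hn₃
  set x : K := q₃⁻¹ * (n₃ * k₂) with hx
  have hxN : x ∈ normalizer (P₀ : Set K) :=
    mul_mem (inv_mem (le_normalizer hq₃)) hn₃N
  have hφx : φ x = ψ' (dg lam hlam) := by
    rw [hx, map_mul, map_mul, map_inv, hq₃n, inv_mul_cancel_left, hk₂]
  -- the subgroup `Q₀`
  set Q₀ : Subgroup K := P₀ ⊓ ((uu (ZMod p)).map ψ').comap φ with hQ₀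
  have hQ₀mem : ∀ q, q ∈ Q₀ ↔ q ∈ P₀ ∧ ∃ c : ZMod p, φ q = ψ' (upp c) := by
    intro q
    constructor
    · rintro ⟨h1, h2⟩
      obtain ⟨_, ⟨c, rfl⟩, hc⟩ := h2
      exact ⟨h1, c, hc.symm⟩
    · rintro ⟨h1, c, hc⟩
      exact ⟨h1, ⟨upp c, ⟨c, rfl⟩, hc.symm⟩⟩
  have hxQ : x ∈ normalizer (Q₀ : Set K) := by
    rw [mem_normalizer_iff_map_conj]
    apply map_conj_le_of_le_normalizer
    rintro _ ⟨q, hq, rfl⟩
    obtain ⟨h1, c, hc⟩ := (hQ₀mem q).1 hq
    change x * q * x⁻¹ ∈ Q₀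
    rw [hQ₀mem]
    refine ⟨(Subgroup.mem_normalizer_iff.1 hxN q).1 h1, lam ^ 2 * c, ?_⟩
    rw [map_mul, map_mul, map_inv, hc, hφx, ← map_inv, ← map_mul, ← map_mul, dg_mul_upp]
  have hinv : ∀ c, Function.invFun g (g c) = c := Function.leftInverse_invFun hginj
  have hmemW : ∀ v, v ∈ g.range ↔ ∃ c, g c = v := fun v => Iff.rfl
  refine ⟨g.range, fun v => (Function.invFun g v).1, fun v => (Function.invFun g v).2, Q₀, x,
    ?_, ?_, ?_, ?_, ?_, inf_le_left, hxN, hxQ, ?_, ?_, ?_⟩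
  · refine ⟨(1, 0), ?_⟩
    apply e.injective
    rw [hg, ← hζX]
    simp
  · have h1 : y = g (1, 0) := by
      apply e.injective
      rw [hg, ← hζX]
      simp
    change (Function.invFun g y).1 = 1
    rw [h1, hinv]
  · have h1 : y = g (1, 0) := by
      apply e.injective
      rw [hg, ← hζX]
      simp
    change (Function.invFun g y).2 = 0
    rw [h1, hinv]
  · rintro _ ⟨c, rfl⟩ _ ⟨d, rfl⟩
    change (Function.invFun g (g c + g d)).1 = _ ∧ (Function.invFun g (g c + g d)).2 = _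
    rw [← map_add, hinv]
    change (c + d).1 = (Function.invFun g (g c)).1 + (Function.invFun g (g d)).1 ∧
      (c + d).2 = (Function.invFun g (g c)).2 + (Function.invFun g (g d)).2
    rw [hinv, hinv]
    exact ⟨rfl, rfl⟩
  · intro s t
    refine ⟨g (s, t), ⟨_, rfl⟩, ?_, ?_⟩
    · change (Function.invFun g (g (s, t))).1 = s
      rw [hinv]
    · change (Function.invFun g (g (s, t))).2 = t
      rw [hinv]
  · intro q hq
    obtain ⟨h1, c, hc⟩ := (hQ₀mem q).1 hq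
    refine ⟨c, ?_⟩
    rintro _ ⟨d, rfl⟩
    have h2 := hgact q (upp c) hc d
    rw [h2]
    refine ⟨⟨_, rfl⟩, ?_, ?_⟩
    · change (Function.invFun g (g _)).1 = (Function.invFun g (g d)).1 + c * (Function.invFun g (g d)).2
      rw [hinv, hinv, coe_upp]
      simp
    · change (Function.invFun g (g _)).2 = (Function.invFun g (g d)).2
      rw [hinv, hinv, coe_upp]
      simp
  · refine ⟨u₂, (hQ₀mem u₂).2 ⟨hu₂P, 1, hφu₂⟩, 1, one_ne_zero, ?_⟩
    rintro _ ⟨d, rfl⟩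
    have h2 := hgact u₂ (upp 1) hφu₂ d
    rw [h2]
    refine ⟨?_, ?_⟩
    · change (Function.invFun g (g _)).1 = (Function.invFun g (g d)).1 + 1 * (Function.invFun g (g d)).2
      rw [hinv, hinv, coe_upp]
      simp
    · change (Function.invFun g (g _)).2 = (Function.invFun g (g d)).2
      rw [hinv, hinv, coe_upp]
      simp
  · rintro _ ⟨d, rfl⟩
    have h2 := hgact x (dg lam hlam) hφx d
    have h3 := hgact x⁻¹ (dg lam hlam)⁻¹ (by rw [map_inv, map_inv, hφx]) d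
    rw [h2, h3]
    have e00 : (dg lam hlam).1 0 0 = lam := rfl
    have e01 : (dg lam hlam).1 0 1 = 0 := rfl
    have e10 : (dg lam hlam).1 1 0 = 0 := rfl
    have e11 : (dg lam hlam).1 1 1 = lam⁻¹ := rfl
    refine ⟨⟨_, rfl⟩, ⟨_, rfl⟩, ?_, ?_⟩
    · change (Function.invFun g (g _)).1 = lam * (Function.invFun g (g d)).1
      rw [hinv, hinv, e00, e01]
      simp
    · change (Function.invFun g (g _)).2 = lam⁻¹ * (Function.invFun g (g d)).2
      rw [hinv, hinv, e10, e11]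
      simp

end Cfsg.Agent.H219.NatIrr
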