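import Cfsg.Agent.H219.NatIrr

/-!
Reduction of a quadratic pair with non-`p`-action on a module generated by a vector fixed by one of the elements, to
the irreducible case.
-/

set_option autoImplicit false

namespace Cfsg.Agent.H219.NatRed

open Subgroup
open Cfsg.Agent.H219.NatIrr

universe u v

variable {p : ℕ} [hpf : Fact p.Prime] {K : Type v} [Group K] {V : Type u} [AddCommGroup V]
  [Module (ZMod p) V]

/-- `(A - 1) ^ (p ^ n) = A ^ (p ^ n) - 1` in characteristic `p`. -/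
theorem sub_one_pow (A : Module.End (ZMod p) V) (n : ℕ) :
    (A - 1) ^ p ^ n = A ^ p ^ n - 1 := by
  have h : ((Polynomial.X : Polynomial (ZMod p)) - 1) ^ p ^ n = Polynomial.X ^ p ^ n - 1 := by
    rw [sub_pow_char_pow, one_pow]
  have h1 := congrArg (Polynomial.aeval A) h
  simpa using h1

/-- The action of `K` on the quotient by `W` is an action as a `p`-group. -/
def PAct (ρ : K →* Module.End (ZMod p) V) (W : Submodule (ZMod p) V) : Prop :=
  ∀ k, ∃ n, ∀ v, ρ (k ^ p ^ n) v - v ∈ W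

def Inv (ρ : K →* Module.End (ZMod p) V) (W : Submodule (ZMod p) V) : Prop :=
  ∀ k, ∀ w ∈ W, ρ k w ∈ W

theorem exists_pow_of_pact {ρ : K →* Module.End (ZMod p) V} {W : Submodule (ZMod p) V}
    (h : PAct ρ W) (k : K) : ∃ m, ∀ v, ((ρ k - 1 : Module.End (ZMod p) V) ^ m) v ∈ W := by
  obtain ⟨n, hn⟩ := h k
  refine ⟨p ^ n, fun v => ?_⟩
  rw [sub_one_pow, LinearMap.sub_apply, Module.End.one_apply, ← map_pow]
  exact hn v

theorem pact_of_exists_pow {ρ : K →* Module.End (ZMod p) V} {W : Submodule (ZMod p) V}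
    (hW : Inv ρ W) (h : ∀ k, ∃ m, ∀ v, ((ρ k - 1 : Module.End (ZMod p) V) ^ m) v ∈ W) : PAct ρ W := by
  intro k
  obtain ⟨m, hm⟩ := h k
  refine ⟨m, fun v => ?_⟩
  have h1 : m ≤ p ^ m := (Nat.lt_pow_self hpf.out.one_lt).le
  have h2 : ρ (k ^ p ^ m) v - v = ((ρ k - 1) ^ p ^ m) v := by
    rw [sub_one_pow, LinearMap.sub_apply, Module.End.one_apply, ← map_pow]
  rw [h2]
  have h3 : ∀ j, m ≤ j → ∀ v, ((ρ k - 1 : Module.End (ZMod p) V) ^ j) v ∈ W := by
    intro j hj
    induction j, hj using Nat.le_induction with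
    | base => exact hm
    | succ j _ ih =>
      intro v
      rw [pow_succ', Module.End.mul_apply, LinearMap.sub_apply, Module.End.one_apply]
      exact W.sub_mem (hW k _ (ih v)) (ih v)
  exact h3 _ h1 v

section Quad

variable (A B : Module.End (ZMod p) V)

/-- The central element of the algebra generated by two quadratic elements. -/
def TT : Module.End (ZMod p) V := (A - 1) * (B - 1) + (B - 1) * (A - 1)

variable {A B}

theorem TT_mul_left (hA : (A - 1) * (A - 1) = 0) : TT A B * (A - 1) = (A - 1) * TT A B := by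
  unfold TT
  rw [add_mul, mul_add, mul_assoc (B - 1), hA, mul_zero, ← mul_assoc (A - 1) (A - 1), hA, zero_mul,
    add_zero, zero_add, mul_assoc]

theorem TT_mul_right (hB : (B - 1) * (B - 1) = 0) : TT A B * (B - 1) = (B - 1) * TT A B := by
  unfold TT
  rw [add_mul, mul_add, mul_assoc (A - 1), hB, mul_zero, ← mul_assoc (B - 1) (B - 1), hB, zero_mul,
    add_zero, zero_add, mul_assoc]

theorem mul_TT (hA : (A - 1) * (A - 1) = 0) (hB : (B - 1) * (B - 1) = 0) :
    (A * B) * TT A B = (A * B - 1) * (A * B - 1) := by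
  have h1 : A * B = 1 + (A - 1) + (B - 1) + (A - 1) * (B - 1) := by noncomm_ring
  have h2 : A * B - 1 = (A - 1) + (B - 1) + (A - 1) * (B - 1) := by noncomm_ring
  rw [h2, h1]
  unfold TT
  generalize A - 1 = a at *
  generalize B - 1 = b at *
  have e1 : (1 + a + b + a * b) * (a * b + b * a) = a * b + b * a + (a * a) * b + a * b * a
      + b * a * b + (b * b) * a + a * b * a * b + a * (b * b) * a := by noncomm_ring
  have e2 : (a + b + a * b) * (a + b + a * b) = a * a + a * b + (a * a) * b + b * a + b * b + b * a * b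
      + a * b * a + a * (b * b) + a * b * a * b := by noncomm_ring
  rw [e1, e2, hA, hB]
  simp only [zero_mul, mul_zero]
  abel

end Quad

section Main

variable {ρ : K →* Module.End (ZMod p) V} {a b : K}

theorem quad_iff (g : K) : (∀ x, ρ g (ρ g x - x) = ρ g x - x) ↔ (ρ g - 1) * (ρ g - 1) = 0 := by
  constructor
  · intro h
    apply LinearMap.ext
    intro x
    rw [Module.End.mul_apply, LinearMap.sub_apply, Module.End.one_apply, LinearMap.sub_apply,
      Module.End.one_apply, h, sub_self, LinearMap.zero_apply]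
  · intro h x
    have h1 := LinearMap.congr_fun h x
    rw [Module.End.mul_apply, LinearMap.sub_apply, Module.End.one_apply, LinearMap.sub_apply,
      Module.End.one_apply, LinearMap.zero_apply, sub_eq_zero] at h1
    exact h1

/-- If `v` is fixed modulo `W` by the generators then by everything. -/
theorem fixed_mod {W : Submodule (ZMod p) V} (hW : Inv ρ W)
    (hab : Subgroup.closure ({a, b} : Set K) = ⊤) {v : V} (ha : ρ a v - v ∈ W)
    (hb : ρ b v - v ∈ W) (k : K) : ρ k v - v ∈ W := by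
  have hk : k ∈ Subgroup.closure ({a, b} : Set K) := by rw [hab]; trivial
  induction hk using Subgroup.closure_induction with
  | mem x hx =>
    rcases hx with rfl | hx
    · exact ha
    · rw [Set.mem_singleton_iff.1 hx]
      exact hb
  | one => rw [map_one, Module.End.one_apply, sub_self]; exact W.zero_mem
  | mul x y _ _ hx hy =>
    have h1 : ρ (x * y) v - v = ρ x (ρ y v - v) + (ρ x v - v) := by
      rw [map_mul, Module.End.mul_apply, map_sub]; abel
    rw [h1]
    exact W.add_mem (hW x _ hy) hx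
  | inv x _ hx =>
    have h1 : ρ x⁻¹ v - v = - ρ x⁻¹ (ρ x v - v) := by
      rw [map_sub, ← Module.End.mul_apply, ← map_mul, inv_mul_cancel, map_one,
        Module.End.one_apply, neg_sub]
    rw [h1]
    exact W.neg_mem (hW _ _ hx)

theorem TT_mem {W : Submodule (ZMod p) V} (hW : Inv ρ W) {v : V} (hv : v ∈ W) :
    TT (ρ a) (ρ b) v ∈ W := by
  unfold TT
  have h1 : ∀ k, ∀ w ∈ W, (ρ k - 1) w ∈ W := by
    intro k w hw
    rw [LinearMap.sub_apply, Module.End.one_apply]
    exact W.sub_mem (hW k w hw) hw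
  rw [LinearMap.add_apply, Module.End.mul_apply, Module.End.mul_apply]
  exact W.add_mem (h1 _ _ (h1 _ _ hv)) (h1 _ _ (h1 _ _ hv))

/-- If the central element is nilpotent modulo `W` then there is a vector outside `W` fixed modulo `W`. -/
theorem exists_fixed_mod (hab : Subgroup.closure ({a, b} : Set K) = ⊤)
    (ha : (ρ a - 1) * (ρ a - 1) = 0) (hb : (ρ b - 1) * (ρ b - 1) = 0)
    {W : Submodule (ZMod p) V} (hW : Inv ρ W) (hne : W ≠ ⊤)
    (hT : ∀ v, ∃ n, ((TT (ρ a) (ρ b)) ^ n) v ∈ W) :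
    ∃ v, v ∉ W ∧ ∀ k, ρ k v - v ∈ W := by
  classical
  have hsub : ∀ k, ∀ w ∈ W, (ρ k - 1) w ∈ W := by
    intro k w hw
    rw [LinearMap.sub_apply, Module.End.one_apply]
    exact W.sub_mem (hW k w hw) hw
  obtain ⟨v, hv⟩ : ∃ v, v ∉ W := by
    by_contra hcon
    push Not at hcon
    exact hne (eq_top_iff.2 fun v _ => hcon v)
  -- a vector killed by `T`
  obtain ⟨v₁, hv₁, hTv₁⟩ : ∃ v₁, v₁ ∉ W ∧ TT (ρ a) (ρ b) v₁ ∈ W := by
    have h1 := hT v
    have h2 := Nat.find_spec h1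
    have h3 : Nat.find h1 ≠ 0 := by
      intro h0
      rw [h0, pow_zero, Module.End.one_apply] at h2
      exact hv h2
    obtain ⟨m, hm⟩ := Nat.exists_eq_succ_of_ne_zero h3
    refine ⟨((TT (ρ a) (ρ b)) ^ m) v, Nat.find_min h1 (by omega), ?_⟩
    rw [hm, pow_succ', Module.End.mul_apply] at h2
    exact h2
  -- a vector killed by `T` and `a - 1`
  obtain ⟨v₂, hv₂, hTv₂, hav₂⟩ : ∃ v₂, v₂ ∉ W ∧ TT (ρ a) (ρ b) v₂ ∈ W ∧ (ρ a - 1) v₂ ∈ W := by
    by_cases h : (ρ a - 1) v₁ ∈ W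
    · exact ⟨v₁, hv₁, hTv₁, h⟩
    · refine ⟨(ρ a - 1) v₁, h, ?_, ?_⟩
      · rw [← Module.End.mul_apply, TT_mul_left ha, Module.End.mul_apply]
        exact hsub _ _ hTv₁
      · rw [← Module.End.mul_apply, ha, LinearMap.zero_apply]
        exact W.zero_mem
  have key : ∀ w, (ρ a - 1) w ∈ W → (ρ b - 1) w ∈ W → ∀ k, ρ k w - w ∈ W := by
    intro w h1 h2 k
    exact fixed_mod hW hab (by simpa using h1) (by simpa using h2) k
  by_cases h : (ρ b - 1) v₂ ∈ W
  · exact ⟨v₂, hv₂, key v₂ hav₂ h⟩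
  · refine ⟨(ρ b - 1) v₂, h, key _ ?_ ?_⟩
    · have h1 : (ρ a - 1) ((ρ b - 1) v₂) = TT (ρ a) (ρ b) v₂ - (ρ b - 1) ((ρ a - 1) v₂) := by
        unfold TT
        rw [LinearMap.add_apply, Module.End.mul_apply, Module.End.mul_apply]
        abel
      rw [h1]
      exact W.sub_mem hTv₂ (hsub _ _ hav₂)
    · rw [← Module.End.mul_apply, hb, LinearMap.zero_apply]
      exact W.zero_mem

theorem pact_of_nilpotent [Finite V] (hab : Subgroup.closure ({a, b} : Set K) = ⊤)
    (ha : (ρ a - 1) * (ρ a - 1) = 0) (hb : (ρ b - 1) * (ρ b - 1) = 0) :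
    ∀ (W : Submodule (ZMod p) V), Inv ρ W → (∀ v, ∃ n, ((TT (ρ a) (ρ b)) ^ n) v ∈ W) →
      ∀ k, ∃ m, ∀ v, ((ρ k - 1 : Module.End (ZMod p) V) ^ m) v ∈ W := by
  intro W
  induction W using WellFoundedGT.induction with
  | ind W ih =>
    intro hW hT k
    by_cases hne : W = ⊤
    · exact ⟨0, fun v => by rw [hne]; trivial⟩
    obtain ⟨v, hv, hfix⟩ := exists_fixed_mod hab ha hb hW hne hT
    set W' := W ⊔ Submodule.span (ZMod p) {v} with hW'
    have hlt : W < W' := by
      refine lt_of_le_of_ne le_sup_left ?_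
      intro h
      apply hv
      rw [h]
      exact Submodule.mem_sup_right (Submodule.mem_span_singleton_self v)
    have hdiff : ∀ l, ∀ w ∈ W', ρ l w - w ∈ W := by
      intro l w hw
      obtain ⟨w₁, hw₁, w₂, hw₂, rfl⟩ := Submodule.mem_sup.1 hw
      obtain ⟨c, rfl⟩ := Submodule.mem_span_singleton.1 hw₂
      have h1 : ρ l (w₁ + c • v) - (w₁ + c • v) = (ρ l w₁ - w₁) + c • (ρ l v - v) := by
        rw [map_add, map_smul, smul_sub]; abel
      rw [h1]
      exact W.add_mem (W.sub_mem (hW l _ hw₁) hw₁) (W.smul_mem c (hfix l))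
    have hW'inv : Inv ρ W' := by
      intro l w hw
      have h1 : ρ l w = (ρ l w - w) + w := by abel
      rw [h1]
      exact W'.add_mem (hlt.le (hdiff l w hw)) hw
    obtain ⟨m, hm⟩ := ih W' hlt hW'inv (fun u => by
      obtain ⟨n, hn⟩ := hT u
      exact ⟨n, hlt.le hn⟩) k
    refine ⟨m + 1, fun u => ?_⟩
    rw [pow_succ', Module.End.mul_apply, LinearMap.sub_apply, Module.End.one_apply]
    exact hdiff k _ (hm u)

/-- If `K` acts as a `p`-group modulo `W` then the central element is nilpotent modulo `W`. -/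
theorem exists_TT_pow_mem (hab : Subgroup.closure ({a, b} : Set K) = ⊤)
    (ha : (ρ a - 1) * (ρ a - 1) = 0) (hb : (ρ b - 1) * (ρ b - 1) = 0)
    {W : Submodule (ZMod p) V} (hW : Inv ρ W) (hP : PAct ρ W) :
    ∃ m, ∀ v, ((TT (ρ a) (ρ b)) ^ m) v ∈ W := by
  obtain ⟨m, hm⟩ := exists_pow_of_pact hP (a * b)
  refine ⟨m, fun v => ?_⟩
  have h1 : (ρ (a * b)) * TT (ρ a) (ρ b) = (ρ (a * b) - 1) * (ρ (a * b) - 1) := by
    rw [map_mul]
    exact mul_TT ha hb
  have hcomm : Commute (ρ (a * b)) (TT (ρ a) (ρ b)) := by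
    have h2 : Commute (TT (ρ a) (ρ b)) (ρ a) := by
      have h3 : Commute (TT (ρ a) (ρ b)) (ρ a - 1) := TT_mul_left ha
      have h4 := h3.add_right (Commute.one_right _)
      rwa [sub_add_cancel] at h4
    have h3 : Commute (TT (ρ a) (ρ b)) (ρ b) := by
      have h3 : Commute (TT (ρ a) (ρ b)) (ρ b - 1) := TT_mul_right hb
      have h4 := h3.add_right (Commute.one_right _)
      rwa [sub_add_cancel] at h4
    rw [map_mul]
    exact (h2.mul_right h3).symm
  have h2 : (ρ (a * b)) ^ m * (TT (ρ a) (ρ b)) ^ m = (ρ (a * b) - 1) ^ m * (ρ (a * b) - 1) ^ m := by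
    rw [← hcomm.mul_pow, h1, (Commute.refl _).mul_pow]
  have h3 : ((ρ (a * b)) ^ m * (TT (ρ a) (ρ b)) ^ m) v ∈ W := by
    rw [h2, Module.End.mul_apply]
    exact hm _
  rw [Module.End.mul_apply, ← map_pow] at h3
  have h4 := hW ((a * b) ^ m)⁻¹ _ h3
  rw [← Module.End.mul_apply, ← map_mul, inv_mul_cancel, map_one, Module.End.one_apply] at h4
  exact h4

/-- The quotient representation. -/
def quo (ρ : K →* Module.End (ZMod p) V) (N : Submodule (ZMod p) V) (hN : Inv ρ N) :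
    K →* Module.End (ZMod p) (V ⧸ N) where
  toFun k := N.mapQ N (ρ k) (fun w hw => hN k w hw)
  map_one' := by
    apply LinearMap.ext
    intro x
    obtain ⟨x, rfl⟩ := N.mkQ_surjective x
    rw [Submodule.mkQ_apply, Submodule.mapQ_apply, map_one]
    rfl
  map_mul' k l := by
    apply LinearMap.ext
    intro x
    obtain ⟨x, rfl⟩ := N.mkQ_surjective x
    rw [Module.End.mul_apply, Submodule.mkQ_apply, Submodule.mapQ_apply, Submodule.mapQ_apply,
      Submodule.mapQ_apply, map_mul]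
    rfl

theorem quo_mk (N : Submodule (ZMod p) V) (hN : Inv ρ N) (k : K) (x : V) :
    quo ρ N hN k (N.mkQ x) = N.mkQ (ρ k x) := rfl

theorem hasNat_of_quo {N : Submodule (ZMod p) V} (hN : Inv ρ N) {P₀ : Subgroup K} {y : V}
    {lam : ZMod p} (h : HasNat p (quo ρ N hN) P₀ (N.mkQ y) lam) : HasNat p ρ P₀ y lam := by
  obtain ⟨W, e1, e2, Q₀, x, hy, h1, h2, hadd, hsur, hQ, hxP, hxQ, hq, hq', hx⟩ := h
  refine ⟨W.comap N.mkQ.toAddMonoidHom, fun v => e1 (N.mkQ v), fun v => e2 (N.mkQ v), Q₀, x, hy, h1,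
    h2, ?_, ?_, hQ, hxP, hxQ, ?_, ?_, ?_⟩
  · intro w hw w' hw'
    have := hadd _ hw _ hw'
    simpa using this
  · intro s t
    obtain ⟨w, hw, hs, ht⟩ := hsur s t
    obtain ⟨v, rfl⟩ := N.mkQ_surjective w
    exact ⟨v, hw, hs, ht⟩
  · intro q hqQ
    obtain ⟨c, hc⟩ := hq q hqQ
    exact ⟨c, fun w hw => hc _ hw⟩
  · obtain ⟨q, hqQ, c, hc0, hc⟩ := hq'
    exact ⟨q, hqQ, c, hc0, fun w hw => hc _ hw⟩
  · intro w hw
    exact hx _ hw

/-- The generated case. -/
theorem hasNat_of_gen [Finite K] [Finite V] (hp : p ≠ 2)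
    (hab : Subgroup.closure ({a, b} : Set K) = ⊤)
    (ha : ∀ x, ρ a (ρ a x - x) = ρ a x - x) (hb : ∀ x, ρ b (ρ b x - x) = ρ b x - x)
    (y : V) (hy : ρ a y = y)
    (hgen : ∀ W : Submodule (ZMod p) V, Inv ρ W → y ∈ W → W = ⊤)
    (hnp : ¬ PAct ρ ⊥)
    (P₀ : Subgroup K) (hP₀ : IsPGroup p P₀) (hidx : ¬ p ∣ P₀.index) (haP : a ∈ P₀)
    (lam : ZMod p) (hlam : lam ≠ 0) : HasNat p ρ P₀ y lam := by
  classical
  have ha' := (quad_iff a).1 ha
  have hb' := (quad_iff b).1 hb
  have hbot : Inv ρ ⊥ := by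
    intro k w hw
    rw [Submodule.mem_bot] at hw ⊢
    rw [hw, map_zero]
  obtain ⟨N, ⟨hNinv, hNP⟩, hNmax⟩ := (Set.toFinite {N : Submodule (ZMod p) V |
    Inv ρ N ∧ ¬ PAct ρ N}).exists_maximal ⟨⊥, hbot, hnp⟩
  have hmax : ∀ W, Inv ρ W → N < W → PAct ρ W := by
    intro W hW hlt
    by_contra hcon
    exact absurd (hNmax ⟨hW, hcon⟩ hlt.le) (not_le_of_gt hlt)
  set T := TT (ρ a) (ρ b) with hT
  -- `T` commutes with the action
  have hcomm : ∀ k v, T (ρ k v) = ρ k (T v) := by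
    have h1 : ∀ k, Commute T (ρ k) := by
      intro k
      have hk : k ∈ Subgroup.closure ({a, b} : Set K) := by rw [hab]; trivial
      induction hk using Subgroup.closure_induction with
      | mem x hx =>
        rcases hx with rfl | hx
        · have h3 : Commute T (ρ x - 1) := TT_mul_left ha'
          have h4 := h3.add_right (Commute.one_right _)
          rwa [sub_add_cancel] at h4
        · rw [Set.mem_singleton_iff.1 hx]
          have h3 : Commute T (ρ b - 1) := TT_mul_right hb'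
          have h4 := h3.add_right (Commute.one_right _)
          rwa [sub_add_cancel] at h4
      | one => rw [map_one]; exact Commute.one_right _
      | mul x y _ _ hx hy => rw [map_mul]; exact hx.mul_right hy
      | inv x _ hx =>
        have h2 : ρ x * ρ x⁻¹ = 1 := by rw [← map_mul, mul_inv_cancel, map_one]
        have h3 : ρ x⁻¹ * ρ x = 1 := by rw [← map_mul, inv_mul_cancel, map_one]
        change T * ρ x⁻¹ = ρ x⁻¹ * T
        calc T * ρ x⁻¹ = (ρ x⁻¹ * ρ x) * T * ρ x⁻¹ := by rw [h3, one_mul]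
          _ = ρ x⁻¹ * (ρ x * T) * ρ x⁻¹ := by noncomm_ring
          _ = ρ x⁻¹ * (T * ρ x) * ρ x⁻¹ := by rw [hx.eq]
          _ = ρ x⁻¹ * T * (ρ x * ρ x⁻¹) := by noncomm_ring
          _ = ρ x⁻¹ * T := by rw [h2, mul_one]
    intro k v
    exact LinearMap.congr_fun (h1 k).eq v
  have hcommpow : ∀ n k v, (T ^ n) (ρ k v) = ρ k ((T ^ n) v) := by
    intro n
    induction n with
    | zero => intro k v; rfl
    | succ n ih =>
      intro k v
      rw [pow_succ, Module.End.mul_apply, Module.End.mul_apply, hcomm, ih]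
  have hTN : ∀ v ∈ N, T v ∈ N := fun v hv => TT_mem hNinv hv
  have hTNpow : ∀ n, ∀ v ∈ N, (T ^ n) v ∈ N := by
    intro n
    induction n with
    | zero => intro v hv; exact hv
    | succ n ih =>
      intro v hv
      rw [pow_succ, Module.End.mul_apply]
      exact ih _ (hTN v hv)
  -- the generalized kernel of `T` modulo `N`
  let Kn : Submodule (ZMod p) V :=
    { carrier := {v | ∃ n, (T ^ n) v ∈ N}
      add_mem' := by
        rintro v w ⟨n, hn⟩ ⟨m, hm⟩
        refine ⟨n + m, ?_⟩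
        rw [map_add]
        refine N.add_mem ?_ ?_
        · rw [add_comm, pow_add, Module.End.mul_apply]
          exact hTNpow _ _ hn
        · rw [pow_add, Module.End.mul_apply]
          exact hTNpow _ _ hm
      zero_mem' := ⟨0, by rw [map_zero]; exact N.zero_mem⟩
      smul_mem' := by
        rintro c v ⟨n, hn⟩
        exact ⟨n, by rw [map_smul]; exact N.smul_mem c hn⟩ }
  have hKninv : Inv ρ Kn := by
    rintro k w ⟨n, hn⟩
    exact ⟨n, by rw [hcommpow]; exact hNinv k _ hn⟩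
  have hNKn : N ≤ Kn := fun v hv => ⟨0, hv⟩
  have hKn : Kn = N := by
    by_contra hcon
    have hlt : N < Kn := lt_of_le_of_ne hNKn (Ne.symm hcon)
    obtain ⟨m, hm⟩ := exists_TT_pow_mem hab ha' hb' hKninv (hmax Kn hKninv hlt)
    apply hNP
    refine pact_of_exists_pow hNinv (pact_of_nilpotent hab ha' hb' N hNinv ?_)
    intro v
    obtain ⟨n, hn⟩ := hm v
    refine ⟨n + m, ?_⟩
    rw [pow_add, Module.End.mul_apply]
    exact hn
  have hTinj : ∀ v, T v ∈ N → v ∈ N := by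
    intro v hv
    rw [← hKn]
    exact ⟨1, by rw [pow_one]; exact hv⟩
  -- `T` is surjective modulo `N`
  let Tq : (V ⧸ N) →ₗ[ZMod p] (V ⧸ N) := N.mapQ N T (fun w hw => hTN w hw)
  have hTqinj : Function.Injective Tq := by
    rw [injective_iff_map_eq_zero]
    intro x hx
    obtain ⟨x, rfl⟩ := N.mkQ_surjective x
    change N.mkQ (T x) = 0 at hx
    rw [Submodule.mkQ_apply, Submodule.Quotient.mk_eq_zero] at hx ⊢
    exact hTinj x hx
  have hfinq : Finite (V ⧸ N) := Finite.of_surjective _ N.mkQ_surjective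
  have hTqsur : Function.Surjective Tq := Finite.surjective_of_injective hTqinj
  have hTsur : ∀ m v, ∃ u, (T ^ m) u - v ∈ N := by
    intro m
    induction m with
    | zero => intro v; exact ⟨v, by rw [pow_zero, Module.End.one_apply, sub_self]; exact N.zero_mem⟩
    | succ m ih =>
      intro v
      obtain ⟨w, hw⟩ := ih v
      obtain ⟨z, hz⟩ := hTqsur (N.mkQ w)
      obtain ⟨z, rfl⟩ := N.mkQ_surjective z
      change N.mkQ (T z) = N.mkQ w at hz
      have hz' : T z - w ∈ N := by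
        rw [← sub_eq_zero, ← map_sub, Submodule.mkQ_apply, Submodule.Quotient.mk_eq_zero] at hz
        exact hz
      refine ⟨z, ?_⟩
      rw [pow_succ, Module.End.mul_apply]
      have h1 : (T ^ m) (T z) - v = (T ^ m) (T z - w) + ((T ^ m) w - v) := by
        rw [map_sub]; abel
      rw [h1]
      exact N.add_mem (hTNpow m _ hz') hw
  -- irreducibility
  have hirr : ∀ W : Submodule (ZMod p) V, Inv ρ W → N < W → W = ⊤ := by
    intro W hW hlt
    obtain ⟨m, hm⟩ := exists_TT_pow_mem hab ha' hb' hW (hmax W hW hlt)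
    rw [eq_top_iff]
    intro v _
    obtain ⟨u, hu⟩ := hTsur m v
    have h1 : v = (T ^ m) u - ((T ^ m) u - v) := by abel
    rw [h1]
    exact W.sub_mem (hm u) (hlt.le hu)
  have hyN : y ∉ N := by
    intro h
    have h1 := hgen N hNinv h
    apply hNP
    intro k
    exact ⟨0, fun v => by rw [h1]; trivial⟩
  refine hasNat_of_quo hNinv (irr_case hp (quo ρ N hNinv) a b hab ?_ ?_ ?_ ?_ (N.mkQ y) ?_ ?_ P₀ hP₀
    hidx haP lam hlam)
  · intro x
    obtain ⟨x, rfl⟩ := N.mkQ_surjective x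
    rw [quo_mk, ← map_sub, quo_mk, ha]
  · intro x
    obtain ⟨x, rfl⟩ := N.mkQ_surjective x
    rw [quo_mk, ← map_sub, quo_mk, hb]
  · intro W hW
    by_cases hW1 : W.comap N.mkQ = N
    · left
      rw [eq_bot_iff]
      intro x hx
      obtain ⟨x, rfl⟩ := N.mkQ_surjective x
      have h1 : x ∈ W.comap N.mkQ := hx
      rw [hW1] at h1
      rw [Submodule.mem_bot, Submodule.mkQ_apply, Submodule.Quotient.mk_eq_zero]
      exact h1
    · right
      have hle : N ≤ W.comap N.mkQ := by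
        intro v hv
        rw [Submodule.mem_comap, Submodule.mkQ_apply, (Submodule.Quotient.mk_eq_zero N).2 hv]
        exact W.zero_mem
      have h1 := hirr (W.comap N.mkQ) (by
        intro k w hw
        rw [Submodule.mem_comap] at hw ⊢
        rw [← quo_mk N hNinv]
        exact hW k _ hw) (lt_of_le_of_ne hle (Ne.symm hW1))
      rw [eq_top_iff]
      intro x _
      obtain ⟨x, rfl⟩ := N.mkQ_surjective x
      have h2 : x ∈ W.comap N.mkQ := by rw [h1]; trivial
      exact h2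
  · by_contra hcon
    push Not at hcon
    apply hNP
    intro k
    refine ⟨0, fun v => ?_⟩
    have h1 := hcon (k ^ p ^ 0) (N.mkQ v)
    rw [quo_mk, ← sub_eq_zero, ← map_sub, Submodule.mkQ_apply, Submodule.Quotient.mk_eq_zero] at h1
    exact h1
  · rw [Ne, Submodule.mkQ_apply, Submodule.Quotient.mk_eq_zero]
    exact hyN
  · rw [quo_mk, hy]

/-- The restricted representation. -/
def res (ρ : K →* Module.End (ZMod p) V) (U : Submodule (ZMod p) V) (hU : Inv ρ U) :
    K →* Module.End (ZMod p) U where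
  toFun k := (ρ k).restrict (fun w hw => hU k w hw)
  map_one' := by
    apply LinearMap.ext
    intro x
    apply Subtype.ext
    change ρ 1 (x : V) = x
    rw [map_one, Module.End.one_apply]
  map_mul' k l := by
    apply LinearMap.ext
    intro x
    apply Subtype.ext
    change ρ (k * l) (x : V) = ρ k (ρ l x)
    rw [map_mul, Module.End.mul_apply]

theorem coe_res (U : Submodule (ZMod p) V) (hU : Inv ρ U) (k : K) (x : U) :
    ((res ρ U hU k x : U) : V) = ρ k x := rfl

theorem hasNat_of_res {U : Submodule (ZMod p) V} (hU : Inv ρ U) {P₀ : Subgroup K} {y : U}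
    {lam : ZMod p} (h : HasNat p (res ρ U hU) P₀ y lam) : HasNat p ρ P₀ (y : V) lam := by
  classical
  obtain ⟨W, e1, e2, Q₀, x, hy, h1, h2, hadd, hsur, hQ, hxP, hxQ, hq, hq', hx⟩ := h
  have hmem : ∀ v, v ∈ W.map U.subtype.toAddMonoidHom ↔ ∃ w ∈ W, (w : V) = v := fun v => Iff.rfl
  let f1 : V → ZMod p := fun v => if h : v ∈ U then e1 ⟨v, h⟩ else 0
  let f2 : V → ZMod p := fun v => if h : v ∈ U then e2 ⟨v, h⟩ else 0
  have hf1 : ∀ w : U, f1 w = e1 w := by
    intro w
    change (if h : (w : V) ∈ U then e1 ⟨w, h⟩ else 0) = e1 w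
    rw [dif_pos w.2]
  have hf2 : ∀ w : U, f2 w = e2 w := by
    intro w
    change (if h : (w : V) ∈ U then e2 ⟨w, h⟩ else 0) = e2 w
    rw [dif_pos w.2]
  refine ⟨W.map U.subtype.toAddMonoidHom, f1, f2, Q₀, x, ⟨y, hy, rfl⟩, by rw [hf1, h1],
    by rw [hf2, h2], ?_, ?_, hQ, hxP, hxQ, ?_, ?_, ?_⟩
  · rintro _ ⟨w, hw, rfl⟩ _ ⟨w', hw', rfl⟩
    have := hadd _ hw _ hw'
    change f1 ((w : V) + w') = f1 w + f1 w' ∧ f2 ((w : V) + w') = f2 w + f2 w'
    rw [← Submodule.coe_add, hf1, hf1, hf1, hf2, hf2, hf2]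
    exact this
  · intro s t
    obtain ⟨w, hw, hs, ht⟩ := hsur s t
    exact ⟨w, ⟨w, hw, rfl⟩, by rw [hf1, hs], by rw [hf2, ht]⟩
  · intro q hqQ
    obtain ⟨c, hc⟩ := hq q hqQ
    refine ⟨c, ?_⟩
    rintro _ ⟨w, hw, rfl⟩
    obtain ⟨h3, h4, h5⟩ := hc w hw
    refine ⟨⟨_, h3, rfl⟩, ?_, ?_⟩
    · change f1 (ρ q (w : V)) = f1 w + c * f2 w
      rw [← coe_res U hU, hf1, hf1, hf2, h4]
    · change f2 (ρ q (w : V)) = f2 w
      rw [← coe_res U hU, hf2, hf2, h5]
  · obtain ⟨q, hqQ, c, hc0, hc⟩ := hq'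
    refine ⟨q, hqQ, c, hc0, ?_⟩
    rintro _ ⟨w, hw, rfl⟩
    obtain ⟨h4, h5⟩ := hc w hw
    refine ⟨?_, ?_⟩
    · change f1 (ρ q (w : V)) = f1 w + c * f2 w
      rw [← coe_res U hU, hf1, hf1, hf2, h4]
    · change f2 (ρ q (w : V)) = f2 w
      rw [← coe_res U hU, hf2, hf2, h5]
  · rintro _ ⟨w, hw, rfl⟩
    obtain ⟨h3, h4, h5, h6⟩ := hx w hw
    refine ⟨⟨_, h3, rfl⟩, ⟨_, h4, rfl⟩, ?_, ?_⟩
    · change f1 (ρ x (w : V)) = lam * f1 w
      rw [← coe_res U hU, hf1, hf1, h5]
    · change f2 (ρ x (w : V)) = lam⁻¹ * f2 w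
      rw [← coe_res U hU, hf2, hf2, h6]

/-- The natural section below the module generated by `y`. -/
theorem hasNat_of_orbit [Finite K] [Finite V] (hp : p ≠ 2)
    (hab : Subgroup.closure ({a, b} : Set K) = ⊤)
    (ha : ∀ x, ρ a (ρ a x - x) = ρ a x - x) (hb : ∀ x, ρ b (ρ b x - x) = ρ b x - x)
    (y : V) (hy : ρ a y = y)
    (hnp : ∃ k, ∀ n, ∃ l, ρ (k ^ p ^ n) (ρ l y) ≠ ρ l y)
    (P₀ : Subgroup K) (hP₀ : IsPGroup p P₀) (hidx : ¬ p ∣ P₀.index) (haP : a ∈ P₀)
    (lam : ZMod p) (hlam : lam ≠ 0) : HasNat p ρ P₀ y lam := by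
  classical
  set U : Submodule (ZMod p) V := Submodule.span (ZMod p) (Set.range fun k => ρ k y) with hU
  have hUinv : Inv ρ U := by
    intro k w hw
    have h1 : U ≤ U.comap (ρ k) := by
      rw [hU, Submodule.span_le]
      rintro _ ⟨l, rfl⟩
      change ρ k (ρ l y) ∈ U
      rw [← Module.End.mul_apply, ← map_mul]
      exact Submodule.subset_span ⟨_, rfl⟩
    exact h1 hw
  have hyU : y ∈ U := Submodule.subset_span ⟨1, by change ρ 1 y = y; rw [map_one, Module.End.one_apply]⟩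
  refine hasNat_of_res (y := ⟨y, hyU⟩) hUinv (hasNat_of_gen hp hab ?_ ?_ _ ?_ ?_ ?_ P₀ hP₀ hidx haP
    lam hlam)
  · intro x
    exact Subtype.ext (ha x)
  · intro x
    exact Subtype.ext (hb x)
  · exact Subtype.ext hy
  · intro W hW hyW
    have h1 : U ≤ W.map U.subtype := by
      conv_lhs => rw [hU]
      rw [Submodule.span_le]
      rintro _ ⟨l, rfl⟩
      exact ⟨_, hW l _ hyW, rfl⟩
    rw [eq_top_iff]
    rintro ⟨x, hx⟩ _
    obtain ⟨w, hw, hwx⟩ := h1 hx
    have : w = ⟨x, hx⟩ := Subtype.ext hwx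
    rw [← this]
    exact hw
  · intro hP
    obtain ⟨k, hk⟩ := hnp
    obtain ⟨n, hn⟩ := hP k
    obtain ⟨l, hl⟩ := hk n
    have h1 : (⟨ρ l y, hUinv l y hyU⟩ : U) ∈ (⊤ : Submodule (ZMod p) U) := trivial
    have h2 := hn ⟨ρ l y, hUinv l y hyU⟩
    rw [Submodule.mem_bot, sub_eq_zero] at h2
    exact hl (congrArg Subtype.val h2)

end Main

end Cfsg.Agent.H219.NatRed
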