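import Cfsg.Prelude.Def_Spor_Mathieu
import Cfsg.Agent.H219.NoSPPair
import Cfsg.Agent.H994.TwoGen.Chain
import Cfsg.Agent.J4.M24Hom
import Cfsg.Agent.MTwelveType.SylowModel
import Cfsg.Agent.S0383
import Cfsg.Agent.SporadicA.M11Comp

/-!
# `M₁₂` has no strongly 3-embedded subgroup (helper219)
-/

set_option autoImplicit false

namespace Cfsg.Agent.H219.NoSPM12

open Cfsg Cfsg.Agent.H994.TwoGen Cfsg.Agent.H994.TwoGen.Chain Cfsg.Agent.H998.StrP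
open Cfsg.Agent.J4.M24Hom (fn)
open scoped Pointwise

/-- table of `A` -/
def ta : List ℕ := [6, 16, 3, 4, 9, 15, 0, 11, 8, 1, 23, 5, 13, 18, 14, 22, 2, 20, 12, 10, 17, 7, 21, 19]
/-- table of `A⁻¹` -/
def tai : List ℕ := [6, 9, 16, 2, 3, 11, 0, 21, 8, 4, 19, 7, 18, 12, 14, 5, 1, 20, 13, 23, 17, 22, 15, 10]

/-- an element -/
def A : Equiv.Perm GolayPt where
  toFun := fn ta
  invFun := fn tai
  left_inv := by decide +kernel
  right_inv := by decide +kernel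

theorem A_mem24 : A ∈ M24 :=
  SporadicA.GolayWalk.mem_M24_of_table A ta rfl (by decide +kernel) (by decide +kernel)

open Cfsg.Agent.SporadicStructure.M11InvPerms Cfsg.Agent.MTwelveType.SylowModel in
theorem A_dd : ∀ p ∈ dd, A p ∈ dd := by decide +kernel

theorem A_mem : A ∈ Spor.M12 := MTwelveType.SylowModel.mem_M12 A_mem24 A_dd

/-- table of `B` -/
def tb : List ℕ := [13, 9, 0, 6, 16, 17, 2, 19, 3, 18, 20, 14, 1, 8, 10, 7, 12, 11, 4, 21, 5, 22, 23, 15]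
/-- table of `B⁻¹` -/
def tbi : List ℕ := [2, 12, 6, 8, 18, 20, 3, 15, 13, 1, 14, 17, 16, 0, 11, 23, 4, 5, 9, 7, 10, 19, 21, 22]

/-- an element -/
def B : Equiv.Perm GolayPt where
  toFun := fn tb
  invFun := fn tbi
  left_inv := by decide +kernel
  right_inv := by decide +kernel

theorem B_mem24 : B ∈ M24 :=
  SporadicA.GolayWalk.mem_M24_of_table B tb rfl (by decide +kernel) (by decide +kernel)

open Cfsg.Agent.SporadicStructure.M11InvPerms Cfsg.Agent.MTwelveType.SylowModel in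
theorem B_dd : ∀ p ∈ dd, B p ∈ dd := by decide +kernel

theorem B_mem : B ∈ Spor.M12 := MTwelveType.SylowModel.mem_M12 B_mem24 B_dd


/-- the stabiliser chain -/
def chain : List (GolayPt × List (List ℕ)) :=
  [(some 0, [[], [1, 2, 1], [3], [3, 0], [0, 3, 0], [0], [1, 1], [3, 0, 1], [2, 1], [1], [2, 3], [0, 1]]),
      (some 1, [[], [0, 0], [1, 2, 3, 0, 0, 0], [2, 2], [1, 2, 3, 0], [0, 1, 0, 3], [2, 1, 0, 1, 2], [2, 1, 0, 3, 0,
  0], [3, 0, 1, 2, 1, 2], [0, 1, 0, 1, 2], [1, 2, 3, 2]]),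
      (some 2, [[], [1, 2, 1, 2, 1, 2, 3, 0, 3, 2], [1, 0, 1, 0, 3, 0, 1, 0, 3, 2, 1], [1, 2, 3, 0, 1, 0, 1, 0, 3, 2],
  [0, 1, 2, 1, 0, 1, 0, 1, 0, 3], [3, 0, 1, 2, 3], [0, 1, 0, 3, 0, 1, 0, 3, 0, 0], [2, 3, 0, 3, 2, 1], [1, 0, 3, 2,
  1], [2, 1, 2, 1, 0, 1]]),
      (some 3, [[], [2, 2, 3, 2, 1, 0, 3, 2, 1, 0, 0, 0], [0, 0, 1, 2, 3, 2, 1, 0, 3, 2, 1, 0, 0], [0, 1, 0, 1, 2, 1,
  0, 3, 2, 1, 0, 0], [0, 1, 2, 3, 0, 3, 2, 1, 0, 1, 2, 1, 2, 1], [1, 1, 0], [2, 2, 3, 0, 1, 2, 3, 0, 1, 0, 3, 2, 2],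
  [0, 0, 0, 1, 2, 1, 0, 1, 0, 1, 0, 3, 2, 2], [3, 0, 1, 2, 1, 2, 3, 0, 1, 0, 1, 2, 1, 0, 0]]),
      (some 4, [[], [0, 1, 2, 1, 2, 3, 0, 1, 2, 3, 2, 1, 2, 1, 0, 3], [0, 0, 0, 1, 2, 1, 0, 1, 0, 1, 0, 1, 2], [1, 2,
  3, 0, 3, 0, 1, 0, 3, 2, 1, 0, 3, 0, 3, 2], [2, 2, 3, 2, 1, 0, 1, 0, 1, 0, 0], [2, 1, 2, 3, 2, 1, 2, 1, 2, 1, 0, 3,
  0, 1, 2], [0, 1, 0, 1, 2, 1, 0, 1, 0, 3, 0, 0, 0], [0, 1, 0, 3, 0, 1, 0, 3, 0, 3, 0, 1, 0, 3, 0]])]

theorem chain_ok : ok A B [] chain = true := by decide +kernel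

theorem size_chain : size chain = 95040 := by decide +kernel

theorem closure_eq : Subgroup.closure ({A, B} : Set (Equiv.Perm GolayPt)) = Spor.M12 :=
  Chain.closure_eq A_mem B_mem chain chain_ok (by rw [size_chain, MTwelveType.SylowModel.card_M12])

theorem squareDodecad_mem : Spor.squareDodecad ∈ dodecads := by
  have h : Spor.squareDodecad = SporadicA.M11Comp.sqD := by
    ext x
    rw [SporadicA.M11Comp.mem_sqD]
    revert x
    decide +kernel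
  rw [h]
  exact SporadicA.M11Comp.sqD_mem_dodecads

/-- The two descriptions of `M₁₂`. -/
def equiv : ↥(MulAction.stabilizer M24 Spor.squareDodecad) ≃* Spor.M12 where
  toFun g := ⟨((g : M24) : Equiv.Perm GolayPt), (g : M24).2, g.2⟩
  invFun g := ⟨⟨(g : Equiv.Perm GolayPt), g.2.1⟩, g.2.2⟩
  left_inv _ := rfl
  right_inv _ := rfl
  map_mul' _ _ := rfl

theorem simple : IsSimpleGroup Spor.M12 :=
  have := S0383.result _ squareDodecad_mem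
  equiv.isSimpleGroup_congr.1 this

/-- **`M12` has no strongly 3-embedded subgroup.** -/
theorem noSP_model : NoSP 3 Spor.M12 := by
  have hs : IsSimpleGroup Spor.M12 := simple
  have hp : Fact (Nat.Prime 3) := ⟨Nat.prime_three⟩
  refine NoSPPair.noSP_of_pair (y := A ^ 2) (w := A ^ 2) (z := B ^ 2) A_mem B_mem (Subgroup.pow_mem _ A_mem 2)
    (Subgroup.pow_mem _ A_mem 2) (Subgroup.pow_mem _ B_mem 2) ?_ ?_ ?_ ?_ ?_ ?_ ?_ ?_ ?_ ?_ closure_eq <;>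
    decide +kernel

theorem nosp {G : Type*} [Group G] [Finite G] (h : Spor.IsoM12 G) : NoSP 3 G := by
  obtain ⟨e⟩ := h
  exact NoSP.congr e noSP_model

end Cfsg.Agent.H219.NoSPM12
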