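import Cfsg.Agent.H219.NoSPM12
import Cfsg.Agent.H219.NoSPM23

/-!
# `M₁₂`, `M₂₂`, `M₂₃` have no strongly 3-embedded subgroup (helper219)
-/

set_option autoImplicit false

namespace Cfsg.Agent.H219.NoSPSporA

open Cfsg Cfsg.Agent.H998.StrP

variable {G : Type*} [Group G] [Finite G]

theorem nosp_m12_3 (h : Cfsg.Spor.IsoM12 G) : NoSP 3 G := NoSPM12.nosp h
theorem nosp_m22_3 (h : Cfsg.Spor.IsoM22 G) : NoSP 3 G := NoSPM22.nosp h
theorem nosp_m23_3 (h : Cfsg.Spor.IsoM23 G) : NoSP 3 G := NoSPM23.nosp h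

end Cfsg.Agent.H219.NoSPSporA
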