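import Cfsg.Agent.H219.RedTwo

/-!
The case `C_G(O_p(G)) S < G` of the relative fusion theorem, up to the case `C_G(O_p(G)) ≤ O_p(G)`.
-/

set_option autoImplicit false

namespace Cfsg.Agent.H219.RedCent

open Subgroup Cfsg
open scoped Pointwise commutatorElement
open Cfsg.Agent.PLocal
open Cfsg.Agent.Lib.GoldschmidtFusion
open Cfsg.Agent.Walter.GlaubermanFusion
open Cfsg.Agent.H219.Conf Cfsg.Agent.H219.Red

variable {G : Type*} [Group G] [Finite G] {p : ℕ} [hpf : Fact p.Prime] {lam : ZMod p}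
  {S Z : Subgroup G}

theorem step_cent (IH : ∀ K : Subgroup G, K ≠ ⊤ → RT p lam K) (hO : pPrimeCore p G = ⊥)
    (h : Hyp p S Z) (hCP : centralizer (pCore p G : Set G) ⊔ S ≠ ⊤) :
    (Ctl S (normalizer (Z : Set G)) ∨ FConf p lam S (normalizer (Z : Set G)) Z) ∨
      centralizer (pCore p G : Set G) ≤ pCore p G := by
  by_cases hF : FConf p lam S (normalizer (Z : Set G)) Z
  · exact Or.inl (Or.inr hF)
  set Y := pCore p G with hY
  have hYn : Y.Normal := Lib.Cores.pCore_normal p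
  have hYp : IsPGroup p Y := Lib.Cores.pCore_isPGroup p
  have hYS : Y ≤ S := Lib.Cores.pCore_le_sylow (h.pS.toSylow h.syl)
  set C := centralizer (Y : Set G) with hC
  have hCn : C.Normal := by rw [hC]; infer_instance
  set E := S ⊓ C with hE
  have hEC : E ≤ C := inf_le_right
  have hES : E ≤ S := inf_le_left
  have hEp : IsPGroup p E := h.pS.to_le hES
  have hEi : ¬ p ∣ E.relIndex C := by
    rw [hE, inf_relIndex_right]
    intro hd
    exact h.syl (hd.trans (relIndex_dvd_index_of_normal_right _ _))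
  set N := normalizer (E : Set G) with hN
  have hSN : S ≤ N := by
    rw [hN, le_normalizer_iff]
    intro x hx e he
    exact ⟨S.mul_mem (S.mul_mem hx he.1) (S.inv_mem hx), hCn.conj_mem e he.2 x⟩
  by_cases hNtop : N = ⊤
  · right
    have hEn : E.Normal := normalizer_eq_top_iff.1 hNtop
    have hEY : E ≤ Y := Lib.Cores.le_pCore hEn hEp
    have h1 : C ≤ E := Constrained.eq_of_central_of_coprime (p := p) hO hCn hEp hEC
      (fun z hz y hy => (mem_centralizer_iff.1 hy) z (hEY hz))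
      ((Nat.Prime.coprime_iff_not_dvd hpf.out).2 hEi).symm
    exact h1.trans hEY
  left; left
  intro A hA g hg
  -- Frattini: `G = N C`
  have hFr : ∀ x : G, ∃ m ∈ N, ∃ c ∈ C, x = m * c := by
    have hE' : IsPGroup p (E.subgroupOf C) := hEp.comap_of_injective C.subtype C.subtype_injective
    let Q : Sylow p C := hE'.toSylow hEi
    have hQ : (Q : Subgroup C).map C.subtype = E := by
      show (E.subgroupOf C).map C.subtype = E
      rw [subgroupOf_map_subtype, inf_eq_left.2 hEC]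
    have h1 := Sylow.normalizer_sup_eq_top Q
    rw [hQ] at h1
    intro x
    have h2 : x ∈ N ⊔ C := by rw [h1]; trivial
    rw [mem_sup_of_normal_right] at h2
    obtain ⟨m, hm, c, hc, hmc⟩ := h2
    exact ⟨m, hm, c, hc, hmc.symm⟩
  obtain ⟨m, hm, c, hc, hgmc⟩ := hFr g
  -- `A E` is Sylow in `A C`
  have hAN : A ≤ N := hA.trans hSN
  have hAEp : IsPGroup p (A ⊔ E : Subgroup G) := h.pS.to_le (sup_le hA hES)
  have hAEC : (A ⊔ E) ⊔ C = A ⊔ C := by rw [sup_assoc, sup_eq_right.2 hEC]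
  have hAECinf : (A ⊔ E) ⊓ C = E := by
    apply le_antisymm
    · exact le_inf (inf_le_left.trans (sup_le hA hES)) inf_le_right
    · exact le_inf le_sup_right hEC
  have hAEi : ¬ p ∣ (A ⊔ E).relIndex (A ⊔ C) := by
    have h1 := card_sup_mul_card_inf (A := A ⊔ E) (L := C)
      (by rw [normalizer_eq_top_iff.2 hCn]; exact le_top)
    rw [hAEC, hAECinf] at h1
    rw [← card_mul_relIndex_of_le (sup_le_sup_left hEC A : A ⊔ E ≤ A ⊔ C),
      ← card_mul_relIndex_of_le hEC, mul_assoc] at h1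
    have h2 := Nat.eq_of_mul_eq_mul_left Nat.card_pos h1
    rw [mul_comm] at h2
    have h3 := Nat.eq_of_mul_eq_mul_left Nat.card_pos h2
    rw [h3]; exact hEi
  -- conjugate `c A c⁻¹` into `A E` inside `N ∩ A C`
  have hcA : A.map (MulAut.conj c).toMonoidHom ≤ (A ⊔ C) ⊓ N := by
    rw [map_conj_le_iff]
    intro a ha
    refine ⟨?_, ?_⟩
    · change c * a * c⁻¹ ∈ A ⊔ C
      exact mul_mem (mul_mem (le_sup_right (a := A) hc) (le_sup_left (b := C) ha))
        (inv_mem (le_sup_right (a := A) hc))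
    · have h1 : g * a * g⁻¹ ∈ N := hSN ((map_conj_le_iff.1 hg) a ha)
      have h2 := N.mul_mem (N.mul_mem (N.inv_mem hm) h1) hm
      have e : m⁻¹ * (g * a * g⁻¹) * m = c * a * c⁻¹ := by rw [hgmc]; group
      rw [e] at h2
      exact h2
  have hAi2 : ¬ p ∣ (A ⊔ E).relIndex ((A ⊔ C) ⊓ N) := by
    intro hd
    apply hAEi
    rw [← relIndex_mul_relIndex (A ⊔ E) ((A ⊔ C) ⊓ N) (A ⊔ C)
      (le_inf (sup_le_sup_left hEC A) (sup_le hAN le_normalizer)) inf_le_left]
    exact hd.mul_right _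
  obtain ⟨k, hk, hkle⟩ := exists_conj_le_in (p := p) hAEp hAi2 hcA
    ((h.pS.to_le hA).map _)
  obtain ⟨a₁, ha₁, c₁, hc₁, hkac⟩ : ∃ a₁ ∈ A, ∃ c₁ ∈ C, k = a₁ * c₁ := by
    have h1 := hk.1
    change k ∈ A ⊔ C at h1
    rw [mem_sup_of_normal_right] at h1
    obtain ⟨a₁, ha₁, c₁, hc₁, h⟩ := h1
    exact ⟨a₁, ha₁, c₁, hc₁, h.symm⟩
  have hc₁N : c₁ ∈ N := by
    have hkN : k ∈ N := hk.2
    have h1 := N.mul_mem (N.inv_mem (hAN ha₁)) hkN
    rw [hkac, inv_mul_cancel_left] at h1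
    exact h1
  set c' := c₁ * c with hc'
  have hc'C : c' ∈ C := C.mul_mem hc₁ hc
  set m' := m * c₁⁻¹ with hm'
  have hm'N : m' ∈ N := N.mul_mem hm (N.inv_mem hc₁N)
  have hgm' : g = m' * c' := by rw [hgmc, hm', hc']; group
  have hAc' : A.map (MulAut.conj c').toMonoidHom ≤ S := by
    rw [map_conj_map_conj, map_conj_le_iff] at hkle
    rw [map_conj_le_iff]
    intro a ha
    have h1 := (sup_le hA hES : A ⊔ E ≤ S) (hkle a ha)
    have h2 := S.mul_mem (S.mul_mem (S.inv_mem (hA ha₁)) h1) (hA ha₁)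
    have e : a₁⁻¹ * (k * c * a * (k * c)⁻¹) * a₁ = c' * a * c'⁻¹ := by
      rw [hkac, hc']; group
    rwa [e] at h2
  -- first step: `c' ∈ C S < G`
  have good1 : Good (normalizer (Z : Set G)) A c' :=
    good_of_proper IH h hF hCP le_sup_right hA (le_sup_left (b := S) hc'C) hAc'
  -- second step
  rw [hgm']
  refine good1.mul ?_
  have hA'm : (A.map (MulAut.conj c').toMonoidHom).map (MulAut.conj m').toMonoidHom ≤ S := by
    rw [map_conj_map_conj, ← hgm']; exact hg
  exact good_of_proper IH h hF hNtop hSN hAc' hm'N hA'm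

end Cfsg.Agent.H219.RedCent
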