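import Cfsg.Agent.H219.RedCent

/-!
The case `O_p(G) = 1` of the relative fusion theorem.
-/

set_option autoImplicit false

namespace Cfsg.Agent.H219.RedThree

open Subgroup Cfsg
open Cfsg.Agent.PLocal
open Cfsg.Agent.Lib.GoldschmidtFusion
open Cfsg.Agent.Walter.GlaubermanFusion
open Cfsg.Agent.H219.Conf Cfsg.Agent.H219.Red Cfsg.Agent.H219.RedTwo

variable {G : Type*} [Group G] [Finite G] {p : ℕ} [hpf : Fact p.Prime] {lam : ZMod p}
  {S Z : Subgroup G}

theorem step_three (IH : ∀ K : Subgroup G, K ≠ ⊤ → RT p lam K) (h : Hyp p S Z)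
    (hO : pCore p G = ⊥) :
    Ctl S (normalizer (Z : Set G)) ∨ FConf p lam S (normalizer (Z : Set G)) Z := by
  classical
  by_cases hF : FConf p lam S (normalizer (Z : Set G)) Z
  · exact Or.inr hF
  left
  by_contra hC
  set H := normalizer (Z : Set G) with hH
  have hZ1 : Z ≠ ⊥ := by
    rintro rfl
    apply hC
    intro A hA g hg
    refine Good.of_mem ?_
    have : (⊥ : Subgroup G).Normal := inferInstance
    rw [hH, normalizer_eq_top_iff.2 this]
    trivial
  let FN : Subgroup G → Prop := fun X =>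
    ¬ p ∣ (S ⊓ normalizer (X : Set G)).relIndex (normalizer (X : Set G))
  let Bad : Subgroup G → Prop := fun X => X ≤ S ∧ X ≠ ⊥ ∧ FN X ∧
    ∃ A ≤ S ⊓ normalizer (X : Set G), ∃ g ∈ normalizer (X : Set G),
      A.map (MulAut.conj g).toMonoidHom ≤ S ⊓ normalizer (X : Set G) ∧ ¬ Good H A g
  have hNS : normalizer (S : Set G) ≤ H :=
    (ThompsonJA.normalizer_le_normalizer_centerThompsonAOf S).trans h.nn
  let P : Sylow p G := h.pS.toSylow h.syl
  have hPS : (P : Subgroup G) = S := rfl
  -- Alperin's theorem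
  have hgen : ∀ A : Subgroup G, A ≤ S → ∀ g : G, A.map (MulAut.conj g).toMonoidHom ≤ S →
      (∀ X : Subgroup G, X ≤ S → X ≠ ⊥ → FN X → Nat.card A ≤ Nat.card X →
        ∀ x ∈ normalizer (X : Set G), Good H X x) → Good H A g := by
    intro A hA g hg hX
    refine Good.of_gen (gen_of_conj P (fun X => X = P ∨ FN X) (Or.inl rfl)
      (fun X _ h1 _ _ => Or.inr h1) hA hg) ?_
    intro X hXP hFX hc x hx
    rcases hFX with rfl | h1
    · exact Good.of_mem (hNS hx)
    by_cases hX1 : X = ⊥
    · refine Good.of_cent ?_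
      rw [hX1, mem_centralizer_iff]
      intro a ha
      rw [SetLike.mem_coe, mem_bot] at ha
      rw [ha, one_mul, mul_one]
    · exact hX X hXP hX1 h1 hc x hx
  have hself : ∀ X : Subgroup G, X ≤ S → X ≠ ⊥ → FN X → ∀ x ∈ normalizer (X : Set G),
      ¬ Good H X x → Bad X := by
    intro X hX hX1 hFN x hx hbad
    refine ⟨hX, hX1, hFN, X, le_inf hX le_normalizer, x, hx, ?_, hbad⟩
    rw [mem_normalizer_iff_map_conj.1 hx]
    exact le_inf hX le_normalizer
  have hne : {X | Bad X}.Nonempty := by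
    by_contra hcon
    rw [Set.not_nonempty_iff_eq_empty] at hcon
    apply hC
    intro A hA g hg
    refine hgen A hA g hg ?_
    intro X hX hX1 hFN _ x hx
    by_contra hbad
    have : X ∈ {X | Bad X} := hself X hX hX1 hFN x hx hbad
    rw [hcon] at this
    exact this
  obtain ⟨X, hXbad, hXmax⟩ := (Set.toFinite {X | Bad X}).exists_maximalFor
    (fun X : Subgroup G => Nat.card (S ⊓ normalizer (X : Set G) : Subgroup G)) _ hne
  obtain ⟨hXS, hX1, hXN, A₀, hA₀, g₀, hg₀, hAg₀, hbad₀⟩ := hXbad
  set T := S ⊓ normalizer (X : Set G) with hT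
  have hmax : ∀ X' : Subgroup G, Bad X' → Nat.card (S ⊓ normalizer (X' : Set G) : Subgroup G) ≤
      Nat.card T := by
    intro X' hX'
    rcases le_total (Nat.card T) (Nat.card (S ⊓ normalizer (X' : Set G) : Subgroup G)) with h1 | h1
    · exact hXmax hX' h1
    · exact h1
  have hTS : T ≤ S := inf_le_left
  have hXtop : normalizer (X : Set G) ≠ ⊤ := by
    intro htop
    have hn : X.Normal := normalizer_eq_top_iff.1 htop
    have hle := Lib.Cores.le_pCore hn (h.pS.to_le hXS)
    rw [hO, le_bot_iff] at hle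
    exact hX1 hle
  have hTne : T ≠ S := by
    intro hTS'
    have hSN : S ≤ normalizer (X : Set G) := by rw [← hTS', hT]; exact inf_le_right
    exact hbad₀ (good_of_proper IH h hF hXtop hSN (hA₀.trans inf_le_left) hg₀
      (hAg₀.trans inf_le_left))
  have hTlt : T < S := lt_of_le_of_ne hTS hTne
  have hTp : IsPGroup p T := h.pS.to_le hTS
  -- Claim A
  have claimA : ∀ R : Subgroup G, R ≤ S → ∀ g : G, R.map (MulAut.conj g).toMonoidHom ≤ S →
      Nat.card T < Nat.card R → Good H R g := by
    intro R hR g hg hc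
    refine hgen R hR g hg ?_
    intro X' hX' hX'1 hFN hcX x hx
    by_contra hbad
    have h1 := hmax X' (hself X' hX' hX'1 hFN x hx hbad)
    have h2 : Nat.card X' ≤ Nat.card (S ⊓ normalizer (X' : Set G) : Subgroup G) :=
      Subgroup.card_le_of_le (le_inf hX' le_normalizer)
    omega
  -- Claim B
  have claimB : ∀ X' : Subgroup G, X' ≤ S → X' ≠ ⊥ →
      Nat.card T < Nat.card (S ⊓ normalizer (X' : Set G) : Subgroup G) →
      ∀ A ≤ S ⊓ normalizer (X' : Set G), ∀ g ∈ normalizer (X' : Set G),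
        A.map (MulAut.conj g).toMonoidHom ≤ S ⊓ normalizer (X' : Set G) → Good H A g := by
    intro X' hX' hX'1 hc A hA g hg hAg
    obtain ⟨k, hk, hki⟩ := exists_fullyNormalized P hX'
    obtain ⟨y, hy1, hy2⟩ := exists_extension P rfl hki
    set B := X'.map (MulAut.conj k).toMonoidHom with hB
    have hRy : (S ⊓ normalizer (X' : Set G)).map (MulAut.conj y).toMonoidHom ≤
        S ⊓ normalizer (B : Set G) := hy2
    have good_y : Good H (S ⊓ normalizer (X' : Set G)) y :=
      claimA _ inf_le_left y (hRy.trans inf_le_left) hc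
    have hgN : y * g * y⁻¹ ∈ normalizer (B : Set G) := by
      rw [← hy1, ← map_conj_normalizer]
      exact conj_mem_map_conj hg y
    have hA' : A.map (MulAut.conj y).toMonoidHom ≤ S ⊓ normalizer (B : Set G) :=
      (map_conj_mono hA y).trans hRy
    have hA'' : (A.map (MulAut.conj y).toMonoidHom).map (MulAut.conj (y * g * y⁻¹)).toMonoidHom ≤
        S ⊓ normalizer (B : Set G) := by
      rw [map_conj_map_conj]
      have e : y * g * y⁻¹ * y = y * g := by group
      rw [e, ← map_conj_map_conj]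
      exact (map_conj_mono hAg y).trans hRy
    have hB1 : B ≠ ⊥ := by
      intro hb
      apply hX'1
      have h1 := card_map_conj X' k
      rw [← hB, hb, Subgroup.card_bot] at h1
      exact Subgroup.eq_bot_of_card_eq X' h1.symm
    have hcB : Nat.card T < Nat.card (S ⊓ normalizer (B : Set G) : Subgroup G) := by
      have h1 := Subgroup.card_le_of_le hRy
      rw [card_map_conj] at h1
      omega
    have good_g : Good H (A.map (MulAut.conj y).toMonoidHom) (y * g * y⁻¹) := by
      by_contra hbad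
      have h1 := hmax B ⟨hk, hB1, hki, _, hA', _, hgN, hA'', hbad⟩
      omega
    have g1 : Good H A (y * g * y⁻¹ * y) := (good_y.mono hA).mul good_g
    have e : y * g * y⁻¹ * y = y * g := by group
    rw [e] at g1
    have g2 := (good_y.mono hAg).symm
    rw [map_conj_map_conj] at g2
    have g3 : Good H A (y⁻¹ * (y * g)) := g1.mul g2
    have e2 : y⁻¹ * (y * g) = g := by group
    rwa [e2] at g3
  -- `F₁ = Z ∩ Z(J(T))`
  have hTne1 : T ≠ ⊥ := by
    intro hb
    have h1 : X ≤ T := le_inf hXS le_normalizer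
    rw [hb, le_bot_iff] at h1
    exact hX1 h1
  set J := centerThompsonAOf T with hJ
  have hJT : J ≤ T := ThompsonJA.centerThompsonAOf_le T
  have hJ1 : J ≠ ⊥ := ThompsonJA.centerThompsonAOf_ne_bot T hTp hTne1
  have hNTJ : normalizer (T : Set G) ≤ normalizer (J : Set G) :=
    ThompsonJA.normalizer_le_normalizer_centerThompsonAOf T
  have hTlt' : Nat.card T < Nat.card (S ⊓ normalizer (J : Set G) : Subgroup G) := by
    have h1 := ConjFunctor.card_lt_card_of_lt (lt_inf_normalizer h.pS hTlt)
    have h2 : Nat.card (S ⊓ normalizer (T : Set G) : Subgroup G) ≤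
      Nat.card (S ⊓ normalizer (J : Set G) : Subgroup G) :=
      Subgroup.card_le_of_le (inf_le_inf_left _ hNTJ)
    omega
  set F₁ := Z ⊓ J with hF₁
  have hJF : normalizer (J : Set G) ≤ normalizer (F₁ : Set G) := by
    intro m hm
    refine mem_normalizer_inf hm (claimB J (hJT.trans hTS) hJ1 hTlt' J
      (le_inf (hJT.trans hTS) le_normalizer) m hm ?_)
    rw [mem_normalizer_iff_map_conj.1 hm]
    exact le_inf (hJT.trans hTS) le_normalizer
  have hF₁1 : F₁ ≠ ⊥ := by
    have h1 := PLocal.OffenderStep.inf_centralizer_ne_bot (p := p) Z S (h.pS.to_le h.le) h.pS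
      h.le_norm hZ1
    obtain ⟨⟨z, hz1, hz2⟩, hz3⟩ := (Subgroup.ne_bot_iff_exists_ne_one).1 h1
    intro hb
    apply hz3
    apply Subtype.ext
    have hzT : z ∈ T := by
      refine ⟨h.le hz1, ?_⟩
      exact centralizer_le_normalizer (X : Set G)
        (centralizer_le (show (X : Set G) ⊆ (S : Set G) from hXS) hz2)
    have hzJ : z ∈ J := ThompsonJA.inf_centralizer_le_centerThompsonAOf T
      ⟨hzT, centralizer_le (show (T : Set G) ⊆ (S : Set G) from hTS) hz2⟩
    have h2 : z ∈ F₁ := ⟨hz1, hzJ⟩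
    rw [hb, mem_bot] at h2
    exact h2
  have hF₁S : F₁ ≤ S := inf_le_left.trans h.le
  have hTF : T ≤ normalizer (F₁ : Set G) := (le_normalizer.trans hNTJ).trans hJF
  have hTSF : T ≤ S ⊓ normalizer (F₁ : Set G) := le_inf hTS hTF
  have hcF : Nat.card T < Nat.card (S ⊓ normalizer (F₁ : Set G) : Subgroup G) := by
    have h2 : Nat.card (S ⊓ normalizer (J : Set G) : Subgroup G) ≤
      Nat.card (S ⊓ normalizer (F₁ : Set G) : Subgroup G) :=
      Subgroup.card_le_of_le (inf_le_inf_left _ hJF)
    omega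
  have hBF := claimB F₁ hF₁S hF₁1 hcF
  rcases (IH _ hXtop).apply_in (U := T) (F := F₁) inf_le_right hTp hXN inf_le_right
    (inf_le_right.trans hJF) with h1 | h1
  · apply hbad₀
    obtain ⟨n, hn, c, hc, hg⟩ := h1 A₀ hA₀ g₀ hg₀ hAg₀
    have hAc : A₀.map (MulAut.conj c).toMonoidHom = A₀ := map_conj_of_mem_centralizer hc
    have hAn : A₀.map (MulAut.conj n).toMonoidHom ≤ T := by
      rw [hg, ← map_conj_map_conj, hAc] at hAg₀
      exact hAg₀
    rw [hg]
    refine (Good.of_cent hc).mul ?_
    rw [hAc]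
    exact hBF A₀ (hA₀.trans hTSF) n hn.2 (hAn.trans hTSF)
  · apply hF
    have h2 : FConf p lam T H F₁ := by
      refine h1.transfer ?_
      intro Q hQ x hx hxQ
      refine hBF Q (hQ.trans hTSF) x hx.2 ?_
      rw [mem_normalizer_iff_map_conj.1 hxQ]
      exact hQ.trans hTSF
    exact h2.mono hTS le_rfl inf_le_left

end Cfsg.Agent.H219.RedThree
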