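import Cfsg.Agent.H219.Red
import Cfsg.Agent.PLocal.OffenderStep

/-!
The case `G = C_G(O_p(G)) S` of the relative fusion theorem.
-/

set_option autoImplicit false

namespace Cfsg.Agent.H219.RedTwo

open Subgroup Cfsg
open scoped Pointwise commutatorElement
open Cfsg.Agent.PLocal
open Cfsg.Agent.Lib.GoldschmidtFusion
open Cfsg.Agent.Walter.GlaubermanFusion
open Cfsg.Agent.H219.Conf Cfsg.Agent.H219.Red

variable {G : Type*} [Group G] {p : ℕ} {lam : ZMod p} {S Z : Subgroup G}

/-- If conjugation by `m ∈ N(Q)` on `Q` is induced by an element of `N(Z)` then `m` normalizes `Z ∩ Q`. -/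
theorem mem_normalizer_inf {Q : Subgroup G} {m : G} (hm : m ∈ normalizer (Q : Set G))
    (h : Good (normalizer (Z : Set G)) Q m) : m ∈ normalizer ((Z ⊓ Q : Subgroup G) : Set G) := by
  obtain ⟨n, hn, c, hc, rfl⟩ := h
  have hnQ : n ∈ normalizer (Q : Set G) := by
    have h1 := mul_mem hm (inv_mem (centralizer_le_normalizer (Q : Set G) hc))
    rwa [mul_inv_cancel_right] at h1
  have h1 : n ∈ normalizer ((Z ⊓ Q : Subgroup G) : Set G) := by
    rw [mem_normalizer_iff_map_conj, Subgroup.map_inf _ _ _ (MulAut.conj n).injective,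
      mem_normalizer_iff_map_conj.1 hn, mem_normalizer_iff_map_conj.1 hnQ]
  have h2 : c ∈ normalizer ((Z ⊓ Q : Subgroup G) : Set G) := by
    apply centralizer_le_normalizer
    exact centralizer_le (show ((Z ⊓ Q : Subgroup G) : Set G) ⊆ (Q : Set G) from
      fun x hx => hx.2) hc
  exact mul_mem h1 h2

variable [Finite G] [hpf : Fact p.Prime]

theorem step_two (IH : ∀ K : Subgroup G, K ≠ ⊤ → RT p lam K) (hq : RT p lam (G ⧸ pCore p G))
    (h : Hyp p S Z) (hCP : centralizer (pCore p G : Set G) ⊔ S = ⊤) :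
    Ctl S (normalizer (Z : Set G)) ∨ FConf p lam S (normalizer (Z : Set G)) Z := by
  by_cases hF : FConf p lam S (normalizer (Z : Set G)) Z
  · exact Or.inr hF
  left
  set Y := pCore p G with hY
  have hYn : Y.Normal := Lib.Cores.pCore_normal p
  have hYp : IsPGroup p Y := Lib.Cores.pCore_isPGroup p
  have hYS : Y ≤ S := by
    have h1 := Lib.Cores.pCore_le_sylow (h.pS.toSylow h.syl)
    exact h1
  by_cases hSY : S = Y
  · apply ctl_of_top
    have htop : normalizer (S : Set G) = ⊤ := by
      rw [hSY]; exact normalizer_eq_top_iff.2 hYn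
    rw [eq_top_iff, ← htop]
    exact (ThompsonJA.normalizer_le_normalizer_centerThompsonAOf S).trans h.nn
  by_cases hZY : Z ≤ Y
  · apply ctl_of_top
    rw [eq_top_iff, ← hCP]
    refine sup_le ?_ h.le_norm
    exact (centralizer_le (by exact_mod_cast hZY)).trans (centralizer_le_normalizer _)
  set φ := QuotientGroup.mk' Y with hφ
  have hφs : Function.Surjective φ := QuotientGroup.mk'_surjective Y
  have hker : φ.ker = Y := QuotientGroup.ker_mk' Y
  have hφ1 : ∀ y ∈ Y, φ y = 1 := fun y hy => by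
    rw [← MonoidHom.mem_ker, hker]; exact hy
  set Sb := S.map φ with hSb
  have hSbp : IsPGroup p Sb := h.pS.map φ
  set ZJb := centerThompsonAOf Sb with hZJb
  set Q := ZJb.comap φ with hQ
  have hcomapS : Sb.comap φ = S := by
    rw [hSb, comap_map_eq, hker, sup_eq_left.2 hYS]
  have hQS : Q ≤ S := by
    rw [← hcomapS]
    exact comap_mono (ThompsonJA.centerThompsonAOf_le _)
  have hNQ : (normalizer (ZJb : Set (G ⧸ Y))).comap φ = normalizer (Q : Set G) :=
    comap_normalizer_eq_of_surjective ZJb hφs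
  have hQtop : normalizer (Q : Set G) ≠ ⊤ := by
    intro htop
    have hn : Q.Normal := normalizer_eq_top_iff.1 htop
    have hle : Q ≤ Y := Lib.Cores.le_pCore hn (h.pS.to_le hQS)
    have hZb : ZJb = ⊥ := by
      rw [eq_bot_iff]
      intro z hz
      obtain ⟨x, rfl⟩ := hφs z
      rw [mem_bot]
      exact hφ1 x (hle hz)
    have hPb1 : Sb = ⊥ := by
      by_contra hne
      exact ThompsonJA.centerThompsonAOf_ne_bot _ hSbp hne hZb
    apply hSY
    refine le_antisymm ?_ hYS
    intro x hx
    have h1 : φ x ∈ Sb := ⟨x, hx, rfl⟩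
    rw [hPb1, mem_bot] at h1
    rw [← hker]; exact h1
  have hSNQ : S ≤ normalizer (Q : Set G) := by
    intro x hx
    rw [← hNQ]
    exact ThompsonJA.normalizer_le_normalizer_centerThompsonAOf _
      (le_normalizer (show φ x ∈ Sb from ⟨x, hx, rfl⟩))
  -- `N(Q)` normalizes `Z₁ = Z ∩ Q`
  set Z₁ := Z ⊓ Q with hZ₁
  have hNZ₁ : normalizer (Q : Set G) ≤ normalizer (Z₁ : Set G) := by
    intro m hm
    refine mem_normalizer_inf hm (good_of_proper IH h hF hQtop hSNQ hQS hm ?_)
    rw [mem_normalizer_iff_map_conj.1 hm]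
    exact hQS
  set Zb := Z₁.map φ with hZb
  have hZbJ : Zb ≤ ZJb := by
    rintro _ ⟨z, hz, rfl⟩
    exact hz.2
  have hyp : Hyp p Sb Zb := by
    refine ⟨hSbp, ?_, hZbJ, ?_⟩
    · intro hd
      exact h.syl (hd.trans (S.index_map_dvd hφs))
    · intro nb hnb
      obtain ⟨n, rfl⟩ := hφs nb
      have hn : n ∈ normalizer (Q : Set G) := by rw [← hNQ]; exact hnb
      exact Subgroup.le_normalizer_map φ ⟨n, hNZ₁ hn, rfl⟩
  set H := normalizer ((Zb.comap φ : Subgroup G) : Set G) with hHdef
  have hHc : (normalizer (Zb : Set (G ⧸ Y))).comap φ = H := comap_normalizer_eq_of_surjective Zb hφs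
  have hSH : S ≤ H := by
    intro x hx
    rw [← hHc]
    exact hyp.le_norm ⟨x, hx, rfl⟩
  have hVS : Zb.comap φ ≤ S := by
    rw [← hcomapS]
    exact comap_mono hyp.le
  have hH : H ≠ ⊤ := by
    intro htop
    have hn : (Zb.comap φ).Normal := normalizer_eq_top_iff.1 htop
    have hle : Zb.comap φ ≤ Y := Lib.Cores.le_pCore hn (h.pS.to_le hVS)
    -- a nontrivial fixed point of `Sb` on `Z.map φ`
    have hne : Z.map φ ≠ ⊥ := by
      intro hb
      apply hZY
      intro z hz
      have h1 : φ z ∈ Z.map φ := ⟨z, hz, rfl⟩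
      rw [hb, mem_bot] at h1
      rw [← hker]; exact h1
    have hZp : IsPGroup p (Z.map φ) := (h.pS.to_le h.le).map φ
    have hSN : Sb ≤ normalizer ((Z.map φ : Subgroup (G ⧸ Y)) : Set (G ⧸ Y)) := by
      rintro _ ⟨s, hs, rfl⟩
      exact Subgroup.le_normalizer_map φ ⟨s, h.le_norm hs, rfl⟩
    have h1 := PLocal.OffenderStep.inf_centralizer_ne_bot (p := p) (Z.map φ) Sb hZp hSbp hSN hne
    obtain ⟨⟨zb, hzb1, hzb2⟩, hzb3⟩ := (Subgroup.ne_bot_iff_exists_ne_one).1 h1
    obtain ⟨z, hz, rfl⟩ := hzb1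
    have h2 : φ z ∈ ZJb := ThompsonJA.inf_centralizer_le_centerThompsonAOf Sb
      ⟨⟨z, h.le hz, rfl⟩, hzb2⟩
    have h3 : z ∈ Z₁ := ⟨hz, h2⟩
    have h4 : z ∈ Y := hle (show φ z ∈ Zb from ⟨z, h3, rfl⟩)
    exact hzb3 (Subtype.ext (hφ1 z h4))
  rcases hq Sb Zb hyp with hq' | hq'
  swap
  · exfalso
    apply hF
    have h1 : FConf p lam (Sb.comap φ) ((normalizer (Zb : Set (G ⧸ Y))).comap φ) Z₁ :=
      hq'.comap hφs le_rfl
    rw [hHc, hcomapS] at h1
    refine (h1.mono le_rfl le_rfl (inf_le_left : Z₁ ≤ Z)).transfer ?_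
    intro R hR x hx hxR
    refine good_of_proper IH h hF hH hSH hR hx ?_
    rw [mem_normalizer_iff_map_conj.1 hxR]
    exact hR
  -- elements of order prime to `p` centralize `Y`
  have hpprime : ∀ x : G, (orderOf x).Coprime p → x ∈ centralizer (Y : Set G) := by
    intro x hx
    have hCn : (centralizer (Y : Set G)).Normal := by infer_instance
    set ψ := QuotientGroup.mk' (centralizer (Y : Set G)) with hψ
    have hψs : Function.Surjective ψ := QuotientGroup.mk'_surjective _
    have hpg : IsPGroup p (G ⧸ centralizer (Y : Set G)) := by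
      have h1 : S.map ψ = ⊤ := by
        have h2 := congrArg (Subgroup.map ψ) hCP
        rw [Subgroup.map_sup, Subgroup.map_top_of_surjective ψ hψs,
          (Subgroup.map_eq_bot_iff _).2 (by rw [QuotientGroup.ker_mk']), bot_sup_eq] at h2
        exact h2
      have h3 : IsPGroup p (⊤ : Subgroup (G ⧸ centralizer (Y : Set G))) := by
        rw [← h1]; exact h.pS.map ψ
      exact h3.of_equiv Subgroup.topEquiv
    have h4 : orderOf (ψ x) = 1 := by
      obtain ⟨k, hk⟩ := (IsPGroup.iff_orderOf.1 hpg) (ψ x)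
      have h5 : orderOf (ψ x) ∣ orderOf x := orderOf_map_dvd ψ x
      have h6 : (orderOf (ψ x)).Coprime (p ^ k) :=
        Nat.Coprime.pow_right k (Nat.Coprime.coprime_dvd_left h5 hx)
      rw [hk] at h6 ⊢
      exact (Nat.coprime_self _).1 h6
    rw [orderOf_eq_one_iff] at h4
    exact (QuotientGroup.eq_one_iff x).1 h4
  -- main claim: fully normalized target
  have claim : ∀ A' : Subgroup G, Y ≤ A' → A' ≤ S → ∀ (g' : G) (B : Subgroup G),
      A'.map (MulAut.conj g').toMonoidHom = B → B ≤ S →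
      ¬ p ∣ (S ⊓ normalizer (B : Set G)).relIndex (normalizer (B : Set G)) →
      Good H A' g' := by
    intro A' hYA hA'P g' B hgB hBP hBi
    have hYB : Y ≤ B := by
      rw [← hgB]
      intro y hy
      rw [mem_map_conj]
      have h1 := hYn.conj_mem y hy g'⁻¹
      rw [inv_inv] at h1
      exact hYA h1
    have hmapc : ∀ (x : G) (X : Subgroup G), (X.map φ).map (MulAut.conj (φ x)).toMonoidHom =
        (X.map (MulAut.conj x).toMonoidHom).map φ := by
      intro x X
      rw [Subgroup.map_map, Subgroup.map_map]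
      congr 1
    have e1 : (A'.map φ).map (MulAut.conj (φ g')).toMonoidHom = B.map φ := by
      rw [hmapc, hgB]
    obtain ⟨n', hn', c', hc', hgc⟩ := hq' (A'.map φ) (map_mono hA'P) (φ g')
      (by rw [e1]; exact map_mono hBP)
    obtain ⟨n, rfl⟩ := hφs n'
    have hnH : n ∈ H := by rw [← hHc]; exact hn'
    -- `n A' n⁻¹ = B`
    have hcA : (A'.map φ).map (MulAut.conj c').toMonoidHom = A'.map φ :=
      map_conj_of_mem_centralizer hc'
    have e2 : (A'.map (MulAut.conj n).toMonoidHom).map φ = B.map φ := by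
      rw [← e1, hgc, ← map_conj_map_conj, hcA, hmapc]
    have hYnA : Y ≤ A'.map (MulAut.conj n).toMonoidHom := by
      intro y hy
      rw [mem_map_conj]
      have h1 := hYn.conj_mem y hy n⁻¹
      rw [inv_inv] at h1
      exact hYA h1
    have e3 : A'.map (MulAut.conj n).toMonoidHom = B := by
      have h1 := congrArg (Subgroup.comap φ) e2
      rw [comap_map_eq, comap_map_eq, hker, sup_eq_left.2 hYnA, sup_eq_left.2 hYB] at h1
      exact h1
    set k := g' * n⁻¹ with hk
    set X₀ := (centralizer ((B.map φ : Subgroup (G ⧸ Y)) : Set (G ⧸ Y))).comap φ with hX₀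
    have hmemX : ∀ x : G, x ∈ X₀ ↔ ∀ b ∈ B, φ b * φ x = φ x * φ b := by
      intro x
      rw [hX₀, mem_comap, mem_centralizer_iff]
      constructor
      · intro hx b hb; exact hx (φ b) ⟨b, hb, rfl⟩
      · rintro hx _ ⟨b, hb, rfl⟩; exact hx b hb
    have hhX : k ∈ X₀ := by
      rw [hmemX]
      intro b hb
      rw [← e3, mem_map_conj] at hb
      have h1 : φ (n⁻¹ * b * n) ∈ A'.map φ := ⟨_, hb, rfl⟩
      have h2 := mem_centralizer_iff.1 hc' _ h1
      have h3 : φ k = φ n * c' * (φ n)⁻¹ := by rw [hk, map_mul, hgc, map_inv]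
      have h4 : φ b = φ n * φ (n⁻¹ * b * n) * (φ n)⁻¹ := by
        rw [map_mul, map_mul, map_inv]; group
      rw [h3, h4]
      have h5 : φ n * φ (n⁻¹ * b * n) * (φ n)⁻¹ * (φ n * c' * (φ n)⁻¹) =
          φ n * (φ (n⁻¹ * b * n) * c') * (φ n)⁻¹ := by group
      rw [h5, h2]
      group
    have hXN : X₀ ≤ normalizer (B : Set G) := by
      intro x hx
      rw [mem_normalizer_iff_map_conj]
      apply map_conj_le_of_le_normalizer
      rw [map_conj_le_iff]
      intro b hb
      have h1 := (hmemX x).1 hx b hb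
      have h2 : x * b * x⁻¹ * b⁻¹ ∈ Y := by
        rw [← hker, MonoidHom.mem_ker, map_mul, map_mul, map_mul, ← h1, map_inv, map_inv]
        group
      have h3 := B.mul_mem (hYB h2) hb
      simpa using h3
    have hNX : normalizer (B : Set G) ≤ normalizer (X₀ : Set G) := by
      rw [le_normalizer_iff]
      intro m hm x hx
      rw [hmemX]
      intro b hb
      have hb' : m⁻¹ * b * m ∈ B := by
        rw [← mem_normalizer_iff_map_conj.1 hm, mem_map_conj] at hb
        exact hb
      have h1 := (hmemX x).1 hx _ hb'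
      rw [map_mul, map_mul, map_inv] at h1
      rw [map_mul, map_mul, map_inv]
      have h2 : φ b * (φ m * φ x * (φ m)⁻¹) = φ m * ((φ m)⁻¹ * φ b * φ m * φ x) * (φ m)⁻¹ := by
        group
      rw [h2, h1]
      group
    have hXi := not_dvd_relIndex_inf hXN hNX hBi
    have hCX : centralizer (B : Set G) ≤ X₀ := by
      intro x hx
      rw [hmemX]
      intro b hb
      rw [← map_mul, ← map_mul, (mem_centralizer_iff.1 hx) b hb]
    have hXC : X₀ ≤ normalizer ((centralizer (B : Set G) : Subgroup G) : Set G) := by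
      refine hXN.trans ?_
      rw [le_normalizer_iff]
      intro m hm k hk
      rw [← mem_normalizer_iff_map_conj.1 hm, mem_centralizer_map_conj]
      simpa [mul_assoc] using hk
    obtain ⟨s, hs, c, hc, hsc⟩ := exists_mul_of_pprime_mem (p := p) inf_le_right hXi hCX hXC (by
      intro x hx hxo
      refine mem_centralizer_of_comm fun b hb => ?_
      have hxY := hpprime x hxo
      have h1 : ⁅b, x⁆ ∈ Y := by
        rw [← hker, MonoidHom.mem_ker, map_commutatorElement, commutatorElement_eq_one_iff_mul_comm]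
        exact (hmemX x).1 hx b hb
      have hcard : (orderOf x).Coprime (Nat.card Y) := by
        obtain ⟨k, hk⟩ := IsPGroup.iff_card.mp hYp
        rw [hk]; exact Nat.Coprime.pow_right k hxo
      exact Lib.CoprimeStab.commute_of_commutator_commute hcard h1
        ((mem_centralizer_iff.1 hxY) _ h1)) hhX
    have hgh : g' = k * n := by rw [hk]; group
    rw [hgh]
    refine (Good.of_mem hnH).mul ?_
    rw [e3, hsc]
    refine (Good.of_cent hc).mul ?_
    exact Good.of_mem (hSH hs.1.1)
  intro A hA g hg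
  refine good_of_good IH h hF hH hSH hA hg ?_
  -- reduce to the claim
  have hA1P : A ⊔ Y ≤ S := sup_le hA hYS
  have hYg : ∀ x : G, Y.map (MulAut.conj x).toMonoidHom = Y := fun x =>
    mem_normalizer_iff_map_conj.1 (by rw [normalizer_eq_top_iff.2 hYn]; trivial)
  have hgA1 : (A ⊔ Y).map (MulAut.conj g).toMonoidHom ≤ S := by
    rw [Subgroup.map_sup, hYg]
    exact sup_le hg hYS
  obtain ⟨k, hk, hki⟩ := exists_fullyNormalized (h.pS.toSylow h.syl) hgA1
  change _ ≤ S at hk
  have hYgA : Y ≤ (A ⊔ Y).map (MulAut.conj g).toMonoidHom := by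
    rw [Subgroup.map_sup, hYg]; exact le_sup_right
  have g1 : Good H ((A ⊔ Y).map (MulAut.conj g).toMonoidHom) k := claim _ hYgA hgA1 k _ rfl hk hki
  have g2 : Good H (A ⊔ Y) (k * g) := claim _ le_sup_right hA1P (k * g) _
    (by rw [map_conj_map_conj]) hk hki
  have g3 := g2.mul (h := k⁻¹) (by
    have := g1.symm
    rwa [map_conj_map_conj] at this)
  have e : k⁻¹ * (k * g) = g := by group
  rw [e] at g3
  exact g3.mono le_sup_left

end Cfsg.Agent.H219.RedTwo
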