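import Cfsg.Agent.PLocal.QuadraticDickson
import Cfsg.Agent.Lib.GoldschmidtFusion

/-!
Unipotent subgroups of `SL₂(E)`: a `p`-subgroup containing `[1 μ; 0 1]`, `μ ≠ 0`, consists of matrices `[1 s; 0 1]`.
-/

set_option autoImplicit false

namespace Cfsg.Agent.H219.SLTwo

open Matrix Subgroup
open Cfsg.Agent.PLocal.QuadraticPair Cfsg.Agent.PLocal.QuadraticNatural

variable {E : Type*} [Field E]

/-- The diagonal matrix `[l 0; 0 l⁻¹]` of `SL₂`. -/
def dg (l : E) (hl : l ≠ 0) : Matrix.SpecialLinearGroup (Fin 2) E :=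
  ⟨!![l, 0; 0, l⁻¹], by rw [Matrix.det_fin_two_of]; field_simp; ring⟩

theorem eq_upp_of_entries (M : Matrix.SpecialLinearGroup (Fin 2) E) (h0 : M.1 0 0 = 1)
    (h1 : M.1 1 0 = 0) : M = upp (M.1 0 1) := by
  have hdet : M.1 0 0 * M.1 1 1 - M.1 0 1 * M.1 1 0 = 1 := by
    rw [← Matrix.det_fin_two]; exact M.2
  rw [h0, h1] at hdet
  have h2 : M.1 1 1 = 1 := by linear_combination hdet
  apply Subtype.ext
  rw [coe_upp]
  ext i j
  fin_cases i <;> fin_cases j
  · exact h0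
  · rfl
  · exact h1
  · exact h2

/-- A matrix commuting with `[1 s; 0 1]`, `s ≠ 0`, and with trace two is of the form `[1 t; 0 1]`. -/
theorem eq_upp_of_commute (h2 : (2 : E) ≠ 0) (M : Matrix.SpecialLinearGroup (Fin 2) E) {s : E}
    (hs : s ≠ 0) (hc : M * upp s = upp s * M) (htr : M.1 0 0 + M.1 1 1 = 2) :
    M = upp (M.1 0 1) := by
  have e := congrArg Subtype.val hc
  rw [Matrix.SpecialLinearGroup.coe_mul, Matrix.SpecialLinearGroup.coe_mul, coe_upp] at e
  have e00 := congrFun (congrFun e 0) 0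
  have e01 := congrFun (congrFun e 0) 1
  simp [Matrix.mul_apply, Fin.sum_univ_two] at e00 e01
  have h10 : M.1 1 0 = 0 := by
    rcases e00 with h | h
    · exact absurd h hs
    · exact h
  refine eq_upp_of_entries M ?_ h10
  have h3 : s * (M.1 0 0 - M.1 1 1) = 0 := by linear_combination e01
  rcases mul_eq_zero.1 h3 with h | h
  · exact absurd h hs
  · have h4 : 2 * (M.1 0 0 - 1) = 0 := by linear_combination htr + h
    rcases mul_eq_zero.1 h4 with h5 | h5
    · exact absurd h5 h2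
    · linear_combination h5

theorem upp_injective {s t : E} (h : upp s = upp t) : s = t := by
  have := congrArg (fun M : Matrix.SpecialLinearGroup (Fin 2) E => M.1 0 1) h
  simpa [coe_upp] using this

/-- The upper unitriangular matrices. -/
def uu (E : Type*) [Field E] : Subgroup (Matrix.SpecialLinearGroup (Fin 2) E) where
  carrier := {M | ∃ s, M = upp s}
  mul_mem' := by
    rintro _ _ ⟨s, rfl⟩ ⟨t, rfl⟩
    exact ⟨s + t, upp_mul s t⟩
  one_mem' := ⟨0, upp_zero.symm⟩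
  inv_mem' := by
    rintro _ ⟨s, rfl⟩
    refine ⟨-s, ?_⟩
    rw [inv_eq_iff_mul_eq_one, upp_mul, add_neg_cancel, upp_zero]

theorem mem_uu {M : Matrix.SpecialLinearGroup (Fin 2) E} : M ∈ uu E ↔ ∃ s, M = upp s := Iff.rfl

theorem uu_isPGroup {p : ℕ} [Fact p.Prime] [CharP E p] : IsPGroup p (uu E) := by
  rintro ⟨M, s, rfl⟩
  refine ⟨1, Subtype.ext ?_⟩
  change upp s ^ p ^ 1 = 1
  rw [pow_one, upp_pow, CharP.cast_eq_zero, zero_mul, upp_zero]

theorem le_uu {p : ℕ} [Fact p.Prime] (hp : p ≠ 2) [CharP E p] [Finite E]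
    (S : Subgroup (Matrix.SpecialLinearGroup (Fin 2) E)) (hS : IsPGroup p S) {μ : E} (hμ : μ ≠ 0)
    (hmem : upp μ ∈ S) : S ≤ uu E := by
  have h2 : (2 : E) ≠ 0 := by
    intro h
    have h1 : ((2 : ℕ) : E) = 0 := by exact_mod_cast h
    rw [CharP.cast_eq_zero_iff E p] at h1
    exact hp ((Nat.prime_dvd_prime_iff_eq Fact.out Nat.prime_two).1 h1)
  have hfin : Finite (Matrix.SpecialLinearGroup (Fin 2) E) := by
    have : Finite (Matrix (Fin 2) (Fin 2) E) := inferInstanceAs (Finite (Fin 2 → Fin 2 → E))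
    exact Finite.of_injective (fun M : Matrix.SpecialLinearGroup (Fin 2) E => M.1)
      Subtype.val_injective
  have htr : ∀ M ∈ S, M.1 0 0 + M.1 1 1 = 2 := by
    intro M hM
    obtain ⟨n, hn⟩ := hS ⟨M, hM⟩
    exact trace_eq_two M n (congrArg Subtype.val hn)
  have hnt : Nontrivial S := by
    refine ⟨⟨upp μ, hmem⟩, 1, ?_⟩
    intro h
    have h1 : upp μ = (1 : Matrix.SpecialLinearGroup (Fin 2) E) := congrArg Subtype.val h
    rw [← upp_zero] at h1
    exact hμ (upp_injective h1)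
  have hcn := hS.center_nontrivial
  obtain ⟨⟨z, hz⟩, hz1⟩ := exists_ne (1 : Subgroup.center S)
  have hzc : ∀ M ∈ S, M * z.1 = z.1 * M := by
    intro M hM
    exact congrArg Subtype.val ((Subgroup.mem_center_iff.1 hz) ⟨M, hM⟩)
  have hz2 := eq_upp_of_commute h2 z.1 hμ (hzc _ hmem).symm (htr _ z.2)
  have hz3 : z.1.1 0 1 ≠ 0 := by
    intro h
    rw [h, upp_zero] at hz2
    exact hz1 (Subtype.ext (Subtype.ext hz2))
  intro M hM
  have hc := hzc M hM
  rw [hz2] at hc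
  exact ⟨_, eq_upp_of_commute h2 M hz3 hc (htr M hM)⟩

theorem dg_mul_upp (l s : E) (hl : l ≠ 0) : dg l hl * upp s * (dg l hl)⁻¹ = upp (l ^ 2 * s) := by
  rw [mul_inv_eq_iff_eq_mul]
  apply Subtype.ext
  rw [Matrix.SpecialLinearGroup.coe_mul, Matrix.SpecialLinearGroup.coe_mul, coe_upp, coe_upp]
  change !![l, 0; 0, l⁻¹] * _ = _ * !![l, 0; 0, l⁻¹]
  rw [Matrix.mul_fin_two, Matrix.mul_fin_two]
  have : l * l⁻¹ = 1 := mul_inv_cancel₀ hl
  congr 1
  · simp only [mul_one, mul_zero, zero_mul, add_zero, one_mul, zero_add]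
    have e : l ^ 2 * s * l⁻¹ = l * s := by
      calc l ^ 2 * s * l⁻¹ = l * s * (l * l⁻¹) := by ring
        _ = l * s := by rw [this, mul_one]
    rw [e]

end Cfsg.Agent.H219.SLTwo
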